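import Cfsg.Agent.SpUnipCount.Decomp

/-!
Steinberg's count of unipotent symplectic matrices.
-/

set_option autoImplicit false

namespace CfsgLib.SpUnipCount

open Matrix CfsgLib.SpGeom CfsgLib.Symp

variable {F : Type*} [Field F] [Fintype F] {m : ℕ}

local notation "V" => (Fin m ⊕ Fin m → F)
local notation "Sp" => Matrix.symplecticGroup (Fin m) F
local notation "f" => Cfsg.sympForm m F
local notation "mat" A:max => ((A : Sp) : Matrix (Fin m ⊕ Fin m) (Fin m ⊕ Fin m) F)

theorem exists_move_isom {a : ℕ} (L L' : Isom F m a) : ∃ A : Sp, ∀ x, mat A *ᵥ L.1 x = L'.1 x := by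
  classical
  let e : Fin (a + a) ≃ Fin a ⊕ Fin a := finSumFinEquiv.symm
  let t : Isom F m a → Fin (a + a) → V := fun L i => L.1 (Pi.single (e i) 1)
  have hli : ∀ L : Isom F m a, LinearIndependent F (t L) := fun L => by
    have h1 : t L = L.1 ∘ ((Pi.basisFun F (Fin a ⊕ Fin a)).reindex e.symm) := funext fun i => by simp [t]
    rw [h1]
    exact ((Pi.basisFun F (Fin a ⊕ Fin a)).reindex e.symm).linearIndependent.map' L.1
      (LinearMap.ker_eq_bot.mpr L.injective)
  obtain ⟨A, hA⟩ := exists_move_gram (t L) (t L') (hli L) (hli L') (by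
    ext i j
    exact (L.2 _ _).trans (L'.2 _ _).symm)
  have hext : (mat A).mulVecLin ∘ₗ L.1 = L'.1 := (Pi.basisFun F (Fin a ⊕ Fin a)).ext fun i => by
    obtain ⟨j, rfl⟩ := e.surjective i
    rw [Pi.basisFun_apply]
    exact hA j
  exact ⟨A, fun x => LinearMap.congr_fun hext x⟩

theorem comp_mem {a : ℕ} (A : Sp) (L : Isom F m a) :
    ∀ x y, f (((mat A).mulVecLin ∘ₗ L.1) x) (((mat A).mulVecLin ∘ₗ L.1) y) = Cfsg.sympForm a F x y := fun x y =>
  (form_mulVec A _ _).trans (L.2 x y)

theorem card_isom {a b : ℕ} (h : a + b = m) :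
    Nat.card (Isom F m a) * Nat.card (Matrix.symplecticGroup (Fin b) F) = Nat.card Sp := by
  choose sec hsec using fun L : Isom F m a => exists_move_isom (stdIsom h) L
  rw [← Nat.card_prod]
  refine (Nat.card_congr ?_).symm
  let img : Sp → Isom F m a := fun A => ⟨(mat A).mulVecLin ∘ₗ (stdIsom h).1, comp_mem A _⟩
  have hex : ∀ A : Sp, ∃ y : Matrix.symplecticGroup (Fin b) F, (sec (img A))⁻¹ * A = spBlock F h (1, y) := fun A => by
    have hfix : ∀ x, mat ((sec (img A))⁻¹ * A) *ᵥ blockVec h x 0 = blockVec h x 0 := fun x => by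
      rw [coe_mul', ← Matrix.mulVec_mulVec, show mat A *ᵥ blockVec h x 0 = mat (sec (img A)) *ᵥ blockVec h x 0 from
        (hsec (img A) x).symm, inv_mulVec]
    obtain ⟨x₁, y₁, e⟩ := exists_blocks h ((sec (img A))⁻¹ * A) fun x => by rw [hfix]; exact ⟨x, rfl⟩
    refine ⟨y₁, ?_⟩
    suffices x₁ = 1 by rw [e, this]
    refine ext_mulVec fun u => ?_
    have h1 := hfix u
    rw [e] at h1
    change blockMat h x₁.1 y₁.1 *ᵥ _ = _ at h1
    rw [blockMat_mulVec] at h1
    rw [(blockVec_inj h h1).1]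
    simp
  choose yy hyy using hex
  exact
    { toFun := fun A => (img A, yy A)
      invFun := fun x => sec x.1 * spBlock F h (1, x.2)
      left_inv := fun A => by
        show sec (img A) * spBlock F h (1, yy A) = A
        rw [← hyy A, mul_inv_cancel_left]
      right_inv := fun x => by
        have himg : img (sec x.1 * spBlock F h (1, x.2)) = x.1 := Subtype.ext (LinearMap.ext fun u => by
          show mat (sec x.1 * spBlock F h (1, x.2)) *ᵥ blockVec h u 0 = _
          rw [coe_mul', ← Matrix.mulVec_mulVec]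
          show mat (sec x.1) *ᵥ (blockMat h (1 : Matrix.symplecticGroup (Fin a) F).1 x.2.1 *ᵥ blockVec h u 0) = _
          rw [blockMat_mulVec, Matrix.mulVec_zero]
          simp only [OneMemClass.coe_one, Matrix.one_mulVec]
          exact hsec x.1 u)
        refine Prod.ext himg ?_
        have := hyy (sec x.1 * spBlock F h (1, x.2))
        rw [himg, inv_mul_cancel_left] at this
        exact ((Prod.mk.inj (spBlock_injective h this)).2).symm }

theorem fixOne_conj (A g : Sp) : fixOne (A * g * A⁻¹) = (fixOne g).map (mat A).mulVecLin := by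
  have hpow : ∀ j : ℕ, (mat (A * g * A⁻¹) - 1) ^ j = mat A * (mat g - 1) ^ j * mat A⁻¹ := fun j => by
    induction j with
    | zero => rw [pow_zero, pow_zero, Matrix.mul_one, ← coe_mul', mul_inv_cancel, coe_one']
    | succ j ih =>
      have h1 : mat A⁻¹ * mat A = 1 := by rw [← coe_mul', inv_mul_cancel, coe_one']
      have h2 : mat A * mat A⁻¹ = 1 := by rw [← coe_mul', mul_inv_cancel, coe_one']
      rw [pow_succ, pow_succ, ih, coe_mul', coe_mul', show mat A * mat g * mat A⁻¹ - 1 = mat A * (mat g - 1) * mat A⁻¹ by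
        rw [Matrix.mul_sub, Matrix.sub_mul, Matrix.mul_one, h2]]
      simp only [← Matrix.mul_assoc]
      rw [Matrix.mul_assoc (mat A * (mat g - 1) ^ j) (mat A⁻¹) (mat A), h1, Matrix.mul_one]
  ext v
  rw [fixOne, LinearMap.mem_ker, Matrix.mulVecLin_apply, hpow, ← Matrix.mulVec_mulVec, ← Matrix.mulVec_mulVec]
  constructor
  · intro h
    refine ⟨mat A⁻¹ *ᵥ v, ?_, mulVec_inv A v⟩
    rw [SetLike.mem_coe, fixOne, LinearMap.mem_ker, Matrix.mulVecLin_apply]
    by_contra h0
    exact mulVec_ne_zero A h0 h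
  · rintro ⟨u, hu, rfl⟩
    rw [Matrix.mulVecLin_apply, inv_mulVec]
    rw [SetLike.mem_coe, fixOne, LinearMap.mem_ker, Matrix.mulVecLin_apply] at hu
    rw [hu, Matrix.mulVec_zero]

variable (F m) in
/-- The unipotent elements. -/
noncomputable def uCount : ℕ := Nat.card {x : Matrix.symplecticGroup (Fin m) F // IsNilpotent (x.1 - 1)}

variable (F m) in
/-- The elements without fixed vectors. -/
noncomputable def fCount : ℕ :=
  Nat.card {x : Matrix.symplecticGroup (Fin m) F // ∀ v, x.1 *ᵥ v = v → v = 0}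

theorem card_fixOne_dim {a b : ℕ} (h : a + b = m) :
    Nat.card {g : Sp // Module.finrank F (fixOne g) = 2 * a} * Nat.card (Matrix.symplecticGroup (Fin a) F) *
      Nat.card (Matrix.symplecticGroup (Fin b) F) = Nat.card Sp * (uCount F a * fCount F b) := by
  classical
  have hsa : ∀ g : {g : Sp // Module.finrank F (fixOne g) = 2 * a}, ∃ L : Isom F m a, LinearMap.range L.1 = fixOne g.1 :=
    fun g => by
    obtain ⟨a', ha', hL⟩ := exists_fixOne_coord g.1
    obtain rfl : a = a' := by have := g.2; omega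
    exact hL
  choose L₀ hL₀ using hsa
  let X := {p : Sp × Isom F m a // LinearMap.range p.2.1 = fixOne p.1}
  have hdim : ∀ p : X, Module.finrank F (fixOne p.1.1) = 2 * a := fun p => by
    rw [← p.2, LinearMap.finrank_range_of_inj p.1.2.injective, Module.finrank_pi, Fintype.card_sum, Fintype.card_fin, two_mul]
  have h1 : Nat.card X = Nat.card {g : Sp // Module.finrank F (fixOne g) = 2 * a} *
      Nat.card (Matrix.symplecticGroup (Fin a) F) := by
    rw [← Nat.card_prod]
    have hrange : ∀ (g : {g : Sp // Module.finrank F (fixOne g) = 2 * a}) (A : Matrix.symplecticGroup (Fin a) F),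
        LinearMap.range ((L₀ g).1 ∘ₗ A.1.mulVecLin) = fixOne g.1 := fun g A => by
      rw [LinearMap.range_comp, LinearMap.range_eq_top.mpr (fun v =>
        ⟨(A⁻¹).1 *ᵥ v, CfsgLib.SpGeom.mulVec_inv (m := a) A v⟩), Submodule.map_top, hL₀]
    refine (Nat.card_eq_of_bijective (fun x => (⟨(x.1.1, ⟨(L₀ x.1).1 ∘ₗ x.2.1.mulVecLin, fun u v =>
      ((L₀ x.1).2 _ _).trans (CfsgLib.SpGeom.form_mulVec (m := a) x.2 u v)⟩), hrange x.1 x.2⟩ : X)) ⟨?_, ?_⟩).symm
    · rintro ⟨g, A⟩ ⟨g', A'⟩ e
      have e1 : g = g' := Subtype.ext (congrArg (fun p : X => p.1.1) e)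
      subst e1
      refine Prod.ext rfl (CfsgLib.SpGeom.ext_mulVec fun v => (L₀ g).injective ?_)
      exact LinearMap.congr_fun (congrArg (fun p : X => p.1.2.1) e) v
    · intro p
      obtain ⟨⟨g, L⟩, hp⟩ := p
      have hg := hdim ⟨(g, L), hp⟩
      have hmem : ∀ x, ∃ y, (L₀ ⟨g, hg⟩).1 y = L.1 x := fun x => by
        have : L.1 x ∈ LinearMap.range (L₀ ⟨g, hg⟩).1 := by rw [hL₀]; exact hp ▸ LinearMap.mem_range_self _ x
        exact this
      choose y hy using hmem
      let φ : (Fin a ⊕ Fin a → F) →ₗ[F] (Fin a ⊕ Fin a → F) :=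
        { toFun := y
          map_add' := fun u v => (L₀ ⟨g, hg⟩).injective (by rw [map_add, hy, hy, hy, map_add])
          map_smul' := fun c u => (L₀ ⟨g, hg⟩).injective (by rw [map_smul, hy, hy, map_smul]; rfl) }
      have hA : LinearMap.toMatrix' φ ∈ Matrix.symplecticGroup (Fin a) F := mem_of_form fun u v => by
        rw [LinearMap.toMatrix'_mulVec, LinearMap.toMatrix'_mulVec, ← (L₀ ⟨g, hg⟩).2]
        show f ((L₀ ⟨g, hg⟩).1 (y u)) ((L₀ ⟨g, hg⟩).1 (y v)) = _
        rw [hy, hy, L.2]
      refine ⟨(⟨g, hg⟩, ⟨_, hA⟩), Subtype.ext (Prod.ext rfl (Subtype.ext (LinearMap.ext fun x => ?_)))⟩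
      show (L₀ ⟨g, hg⟩).1 (LinearMap.toMatrix' φ *ᵥ x) = L.1 x
      rw [LinearMap.toMatrix'_mulVec]
      exact hy x
  choose sec hsec using fun L : Isom F m a => exists_move_isom (stdIsom h) L
  have hmap : ∀ L : Isom F m a, (LinearMap.range (stdIsom h).1).map (mat (sec L)).mulVecLin = LinearMap.range L.1 := fun L => by
    rw [← LinearMap.range_comp]
    congr 1
    exact LinearMap.ext (hsec L)
  have h2 : Nat.card X = Nat.card (Isom F m a) * Nat.card {g : Sp // fixOne g = LinearMap.range (stdIsom h).1} := by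
    rw [← Nat.card_prod]
    refine (Nat.card_eq_of_bijective (fun x => (⟨(sec x.1 * x.2.1 * (sec x.1)⁻¹, x.1), by
      rw [fixOne_conj, x.2.2, hmap]⟩ : X)) ⟨?_, ?_⟩).symm
    · rintro ⟨L, g⟩ ⟨L', g'⟩ e
      have e1 : L = L' := congrArg (fun p : X => p.1.2) e
      subst e1
      have e2 : sec L * g.1 * (sec L)⁻¹ = sec L * g'.1 * (sec L)⁻¹ := congrArg (fun p : X => p.1.1) e
      exact Prod.ext rfl (Subtype.ext (mul_left_cancel (mul_right_cancel e2)))
    · rintro ⟨⟨g, L⟩, hp⟩
      refine ⟨(L, ⟨(sec L)⁻¹ * g * sec L, ?_⟩), Subtype.ext (Prod.ext (by group) rfl)⟩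
      refine Submodule.map_injective_of_injective (show Function.Injective (mat (sec L)).mulVecLin from fun u v huv => ?_) ?_
      · rw [← inv_mulVec (sec L) u, ← inv_mulVec (sec L) v]
        exact congrArg _ huv
      · rw [hmap, ← fixOne_conj, hp]
        congr 1
        group
  have h3 : Nat.card {g : Sp // fixOne g = LinearMap.range (stdIsom h).1} = uCount F a * fCount F b := by
    rw [uCount, fCount, ← Nat.card_prod]
    refine (Nat.card_eq_of_bijective (fun z => (⟨spBlock F h (z.1.1, z.2.1),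
      (fixOne_block h _ _).mpr ⟨z.1.2, z.2.2⟩⟩ : {g : Sp // fixOne g = LinearMap.range (stdIsom h).1})) ⟨?_, ?_⟩).symm
    · intro z z' e
      obtain ⟨e1, e2⟩ := Prod.mk.inj (spBlock_injective h (congrArg Subtype.val e))
      exact Prod.ext (Subtype.ext e1) (Subtype.ext e2)
    · rintro ⟨g, hg⟩
      obtain ⟨x, y, rfl⟩ := exists_blocks h g fun x => by
        rw [← hg]
        exact fixOne_stable g _ (hg ▸ LinearMap.mem_range_self (stdIsom h).1 x)
      obtain ⟨hx, hy⟩ := (fixOne_block h x y).mp hg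
      exact ⟨(⟨x, hx⟩, ⟨y, hy⟩), rfl⟩
  rw [← h1, h2, h3, mul_right_comm, card_isom h]

theorem card_split : Nat.card Sp =
    ∑ a ∈ Finset.range (m + 1), Nat.card {g : Sp // Module.finrank F (fixOne g) = 2 * a} := by
  classical
  have hb : ∀ g : Sp, Module.finrank F (fixOne g) / 2 < m + 1 ∧
      2 * (Module.finrank F (fixOne g) / 2) = Module.finrank F (fixOne g) := fun g => by
    obtain ⟨a, ha, -⟩ := exists_fixOne_coord g
    have := Submodule.finrank_le (fixOne g)
    rw [Module.finrank_pi, Fintype.card_sum, Fintype.card_fin] at this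
    omega
  rw [← Fin.sum_univ_eq_sum_range (fun a => Nat.card {g : Sp // Module.finrank F (fixOne g) = 2 * a}), ← Nat.card_sigma]
  refine Nat.card_congr
    { toFun := fun g => ⟨⟨_, (hb g).1⟩, g, (hb g).2.symm⟩
      invFun := fun x => x.2.1
      left_inv := fun g => rfl
      right_inv := fun x => Sigma.subtype_ext (Fin.ext (by
        show Module.finrank F (fixOne x.2.1) / 2 = x.1
        rw [x.2.2]; omega)) rfl }

theorem cc_card (m : ℕ) : cc (Fintype.card F : ℝ) m * Nat.card (Matrix.symplecticGroup (Fin m) F) =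
    (Fintype.card F : ℝ) ^ (2 * m ^ 2) := by
  have hq : (1 : ℝ) < Fintype.card F := by exact_mod_cast Fintype.one_lt_card
  induction m with
  | zero => rw [card_Sp]; simp [cc]
  | succ m ih =>
    have h := cc_succ hq m
    have hS : (Nat.card (Matrix.symplecticGroup (Fin (m + 1)) F) : ℝ) =
        (Fintype.card F : ℝ) ^ (2 * m + 1) * ((Fintype.card F : ℝ) ^ (2 * m + 2) - 1) *
          Nat.card (Matrix.symplecticGroup (Fin m) F) := by
      rw [card_Sp, card_Sp, Finset.prod_range_succ, Nat.cast_mul, Nat.cast_mul, Nat.cast_pow, Nat.cast_mul,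
        Nat.cast_sub (Nat.one_le_pow _ _ Fintype.card_pos), Nat.cast_pow, Nat.cast_pow, Nat.cast_one]
      ring
    rw [hS, show 2 * (m + 1) ^ 2 = 2 * m ^ 2 + (2 * m + 1) + (2 * m + 1) by ring,
      pow_add _ (2 * m ^ 2 + (2 * m + 1)), pow_add _ (2 * m ^ 2), ← ih]
    linear_combination (Fintype.card F : ℝ) ^ (2 * m + 1) * (Nat.card (Matrix.symplecticGroup (Fin m) F) : ℝ) * h

theorem uCount_eq (m : ℕ) : uCount F m = Fintype.card F ^ (2 * m ^ 2) := by
  classical
  have hq : (1 : ℝ) < Fintype.card F := by exact_mod_cast Fintype.one_lt_card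
  have hpos : ∀ j, (Nat.card (Matrix.symplecticGroup (Fin j) F) : ℝ) ≠ 0 := fun j =>
    Nat.cast_ne_zero.mpr Nat.card_pos.ne'
  have key : ∀ n, (uCount F n : ℝ) / Nat.card (Matrix.symplecticGroup (Fin n) F) = cc (Fintype.card F : ℝ) n := by
    intro n
    induction n using Nat.strong_induction_on with
    | _ n ih =>
      have hsum : ∑ p ∈ Finset.HasAntidiagonal.antidiagonal n, (uCount F p.1 : ℝ) / Nat.card (Matrix.symplecticGroup (Fin p.1) F) *
          ee (Fintype.card F : ℝ) p.2 = 1 := by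
        have h0 := congrArg (fun z : ℕ => (z : ℝ)) (card_split (F := F) (m := n))
        simp only [Nat.cast_sum] at h0
        rw [Finset.Nat.sum_antidiagonal_eq_sum_range_succ_mk]
        refine mul_right_cancel₀ (hpos n) ?_
        rw [Finset.sum_mul, one_mul]
        refine Eq.trans (Finset.sum_congr rfl fun a ha => ?_) h0.symm
        have hab : a + (n - a) = n := by have := Finset.mem_range.mp ha; omega
        have h1 := congrArg (fun z : ℕ => (z : ℝ)) (card_fixOne_dim (F := F) hab)
        simp only [Nat.cast_mul, fCount, card_fpf] at h1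
        refine mul_right_cancel₀ (mul_ne_zero (hpos a) (hpos (n - a))) ?_
        rw [← mul_assoc (Nat.card {g : Matrix.symplecticGroup (Fin n) F // Module.finrank F (fixOne g) = 2 * a} : ℝ), h1]
        rw [div_mul_eq_mul_div, div_mul_eq_mul_div, div_mul_eq_mul_div, div_eq_iff (hpos a)]
        ring
      have hc := conv_ee hq n
      rw [Finset.Nat.sum_antidiagonal_eq_sum_range_succ_mk, Finset.sum_range_succ, Nat.sub_self, ee_zero, mul_one] at hsum hc
      rw [Finset.sum_congr rfl fun a ha => by rw [ih a (Finset.mem_range.mp ha)]] at hsum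
      linarith
  have := (div_eq_iff (hpos m)).mp (key m)
  rw [cc_card] at this
  exact_mod_cast this

end CfsgLib.SpUnipCount
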