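import Mathlib

/-!
The power-series identities behind the count of unipotent symplectic matrices.
-/

set_option autoImplicit false

namespace CfsgLib.SpUnipCount

open Finset PowerSeries

/-- `q ^ (2 r ^ 2) / |Sp_{2r}|`. -/
noncomputable def cc (q : ℝ) : ℕ → ℝ
  | 0 => 1
  | r + 1 => cc q r * q ^ (2 * r + 1) / (q ^ (2 * r + 2) - 1)

/-- `q ^ (s.choose 2) / |GL_s|`. -/
noncomputable def dd (q : ℝ) : ℕ → ℝ
  | 0 => 1
  | s + 1 => dd q s / (q ^ (s + 1) - 1)

/-- Number of alternating forms on `F^k` with radical of dimension `s`. -/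
noncomputable def aa (q : ℝ) : ℕ → ℕ → ℝ
  | 0, 0 => 1
  | 0, _ + 1 => 0
  | k + 1, 0 => (q ^ k - q ^ (k - 1)) * aa q k 1
  | k + 1, s + 1 => q ^ (k - s) * aa q k s + (q ^ k - q ^ (k - (s + 2))) * aa q k (s + 2)

theorem q_pow_ne {q : ℝ} (hq : 1 < q) {n : ℕ} (hn : n ≠ 0) : q ^ n - 1 ≠ 0 :=
  sub_ne_zero.mpr (one_lt_pow₀ hq hn).ne'

theorem dd_succ {q : ℝ} (hq : 1 < q) (s : ℕ) : dd q (s + 1) * (q ^ (s + 1) - 1) = dd q s := by
  rw [dd, div_mul_cancel₀ _ (q_pow_ne hq (Nat.succ_ne_zero s))]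

theorem cc_succ {q : ℝ} (hq : 1 < q) (r : ℕ) : cc q (r + 1) * (q ^ (2 * r + 2) - 1) = cc q r * q ^ (2 * r + 1) := by
  rw [cc, div_mul_cancel₀ _ (q_pow_ne hq (by omega))]

theorem dd_ne {q : ℝ} (hq : 1 < q) : ∀ s, dd q s ≠ 0
  | 0 => one_ne_zero
  | s + 1 => by rw [dd]; exact div_ne_zero (dd_ne hq s) (q_pow_ne hq (Nat.succ_ne_zero s))

theorem aa_closed {q : ℝ} (hq : 1 < q) : ∀ k s, (∀ r, k = 2 * r + s → aa q k s * dd q k * q ^ r = cc q r * dd q s) ∧
    ((∀ r, k ≠ 2 * r + s) → aa q k s = 0) := by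
  intro k
  induction k with
  | zero =>
    intro s
    rcases s with _ | s
    · refine ⟨fun r hr => ?_, fun h => absurd rfl (h 0)⟩
      obtain rfl : r = 0 := by omega
      simp [aa, cc, dd]
    · exact ⟨fun r hr => by omega, fun _ => by rw [aa]⟩
  | succ k ih =>
    intro s
    rcases s with _ | s
    · refine ⟨fun r hr => ?_, fun h => ?_⟩
      · obtain ⟨r, rfl⟩ : ∃ r', r = r' + 1 := ⟨r - 1, by omega⟩
        obtain rfl : k = 2 * r + 1 := by omega
        have h1 := (ih 1).1 r rfl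
        rw [aa, show 2 * r + 1 - 1 = 2 * r by omega]
        refine mul_right_cancel₀ (q_pow_ne hq (n := 2 * r + 2) (by omega)) ?_
        have e1 := dd_succ hq (2 * r + 1)
        have e2 := cc_succ hq r
        have e3 : dd q 1 * (q ^ 1 - 1) = dd q 0 := dd_succ hq 0
        have e4 : (q ^ (2 * r + 1) - q ^ (2 * r)) = q ^ (2 * r) * (q ^ 1 - 1) := by ring
        calc (q ^ (2 * r + 1) - q ^ (2 * r)) * aa q (2 * r + 1) 1 * dd q (2 * r + 1 + 1) * q ^ (r + 1) * (q ^ (2 * r + 2) - 1)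
            = (q ^ (2 * r + 1) * (q ^ 1 - 1)) * (aa q (2 * r + 1) 1 * (dd q (2 * r + 1 + 1) * (q ^ (2 * r + 1 + 1) - 1)) * q ^ r) := by
              rw [e4]; ring
          _ = (q ^ (2 * r + 1) * (q ^ 1 - 1)) * (cc q r * dd q 1) := by rw [e1, h1]
          _ = cc q r * q ^ (2 * r + 1) * (dd q 1 * (q ^ 1 - 1)) := by ring
          _ = cc q (r + 1) * dd q 0 * (q ^ (2 * r + 2) - 1) := by rw [e3, ← e2]; ring
      · rw [aa, (ih 1).2 fun r hr => h (r + 1) (by omega), mul_zero]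
    · refine ⟨fun r hr => ?_, fun h => ?_⟩
      · obtain rfl : k = 2 * r + s := by omega
        rw [aa, show 2 * r + s - s = 2 * r by omega]
        refine mul_right_cancel₀ (q_pow_ne hq (n := 2 * r + s + 1) (by omega)) ?_
        have e1 := dd_succ hq (2 * r + s)
        have h1 := (ih s).1 r rfl
        have e2 := dd_succ hq s
        rcases r with _ | r'
        · rw [(ih (s + 2)).2 fun r hr => by omega]
          simp only [Nat.mul_zero, mul_zero, add_zero, pow_zero, one_mul, zero_add, mul_one] at h1 e1 ⊢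
          rw [mul_assoc, e1, h1, mul_assoc, e2]
        · have h2 := (ih (s + 2)).1 r' (by omega)
          have e3 := cc_succ hq r'
          have e4 := dd_succ hq (s + 1)
          rw [show 2 * (r' + 1) + s - (s + 2) = 2 * r' by omega]
          calc (q ^ (2 * (r' + 1)) * aa q (2 * (r' + 1) + s) s +
                (q ^ (2 * (r' + 1) + s) - q ^ (2 * r')) * aa q (2 * (r' + 1) + s) (s + 2)) *
                dd q (2 * (r' + 1) + s + 1) * q ^ (r' + 1) * (q ^ (2 * (r' + 1) + s + 1) - 1)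
              = q ^ (2 * (r' + 1)) * (aa q (2 * (r' + 1) + s) s * (dd q (2 * (r' + 1) + s + 1) *
                  (q ^ (2 * (r' + 1) + s + 1) - 1)) * q ^ (r' + 1)) +
                (q ^ (2 * r') * (q ^ (s + 1 + 1) - 1)) * q * (aa q (2 * (r' + 1) + s) (s + 2) *
                  (dd q (2 * (r' + 1) + s + 1) * (q ^ (2 * (r' + 1) + s + 1) - 1)) * q ^ r') := by ring
            _ = q ^ (2 * (r' + 1)) * (cc q (r' + 1) * (dd q (s + 1) * (q ^ (s + 1) - 1))) +
                cc q r' * q ^ (2 * r' + 1) * (dd q (s + 1 + 1) * (q ^ (s + 1 + 1) - 1)) := by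
              rw [e1, h1, h2, e2]; ring
            _ = cc q (r' + 1) * dd q (s + 1) * (q ^ (2 * (r' + 1) + s + 1) - 1) := by
              rw [e4, ← e3]; ring
      · rw [aa, (ih s).2 fun r hr => h r (by omega), mul_zero, zero_add,
          (ih (s + 2)).2 fun r hr => h (r + 1) (by omega), mul_zero]

/-- The fixed-point-free proportion of `Sp_{2m}`. -/
noncomputable def ee (q : ℝ) (m : ℕ) : ℝ :=
  ∑ k ∈ range (2 * m + 1), ∑ s ∈ range (k + 1), if k + s ≤ 2 * m then (-1) ^ k * dd q k * aa q k s else 0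

theorem ee_eq {q : ℝ} (hq : 1 < q) (m : ℕ) :
    ee q m = ∑ n ∈ range (m + 1), ∑ p ∈ antidiagonal n, cc q p.1 * q⁻¹ ^ p.1 * ((-1) ^ p.2 * dd q p.2) := by
  rw [ee, sum_sigma', sum_sigma']
  symm
  refine sum_bij_ne_zero (fun a _ _ => ⟨2 * a.2.1 + a.2.2, a.2.2⟩) ?_ ?_ ?_ ?_
  · rintro ⟨n, r, s⟩ h _
    simp only [mem_sigma, mem_range, Finset.HasAntidiagonal.mem_antidiagonal] at h ⊢
    omega
  · rintro ⟨n, r, s⟩ h _ ⟨n', r', s'⟩ h' _ e
    simp only [mem_sigma, mem_range, Finset.HasAntidiagonal.mem_antidiagonal] at h h'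
    simp only [Sigma.mk.injEq, heq_eq_eq] at e
    obtain ⟨e1, rfl⟩ := e
    obtain rfl : r = r' := by omega
    obtain rfl : n = n' := by omega
    rfl
  · rintro ⟨k, s⟩ h hne
    simp only [mem_sigma, mem_range] at h
    by_cases hks : k + s ≤ 2 * m
    · rw [if_pos hks] at hne
      obtain ⟨r, hr⟩ : ∃ r, k = 2 * r + s := by
        by_contra hh
        push Not at hh
        exact hne (by rw [(aa_closed hq k s).2 hh, mul_zero])
      refine ⟨⟨r + s, r, s⟩, ?_, ?_, by rw [hr]⟩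
      · exact mem_sigma.mpr ⟨mem_range.mpr (Nat.lt_succ_of_le (by omega : r + s ≤ m)), Finset.HasAntidiagonal.mem_antidiagonal.mpr rfl⟩
      have := (aa_closed hq k s).1 r hr
      intro h0
      refine hne (mul_right_cancel₀ (pow_ne_zero r (by linarith : (q : ℝ) ≠ 0)) ?_)
      rw [inv_pow] at h0
      have : cc q r * dd q s = 0 := by
        by_contra hh
        obtain ⟨h1, h2⟩ := mul_ne_zero_iff.mp hh
        simp [h1, h2, show q ≠ 0 by linarith] at h0
      rw [zero_mul, mul_assoc, mul_assoc, show dd q k * (aa q k s * q ^ r) = cc q r * dd q s by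
        rw [← (aa_closed hq k s).1 r hr]; ring, this, mul_zero]
    · rw [if_neg hks] at hne; exact absurd rfl hne
  · rintro ⟨n, r, s⟩ h _
    simp only [mem_sigma, mem_range, Finset.HasAntidiagonal.mem_antidiagonal] at h
    dsimp only
    rw [if_pos (by omega), inv_pow]
    have := (aa_closed hq (2 * r + s) s).1 r rfl
    have hq0 : q ^ r ≠ 0 := pow_ne_zero r (by linarith)
    rw [show cc q r * (q ^ r)⁻¹ * ((-1) ^ s * dd q s) = (-1) ^ s * (q ^ r)⁻¹ * (cc q r * dd q s) by ring, ← this,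
      pow_add (-1 : ℝ), (even_two_mul r).neg_one_pow, one_mul]
    field_simp

theorem conv_ee {q : ℝ} (hq : 1 < q) (m : ℕ) : ∑ p ∈ antidiagonal m, cc q p.1 * ee q p.2 = 1 := by
  have hq0 : q ≠ 0 := by linarith
  obtain ⟨C, hC⟩ : ∃ C : ℝ⟦X⟧, C = PowerSeries.mk (cc q) := ⟨_, rfl⟩
  obtain ⟨D, hD⟩ : ∃ D : ℝ⟦X⟧, D = PowerSeries.mk fun s => (-1) ^ s * dd q s := ⟨_, rfl⟩
  have hC2 : rescale (q⁻¹ ^ 2) C = (1 - PowerSeries.C q⁻¹ * X) * C := by
    ext n
    rw [sub_mul, one_mul, map_sub, mul_assoc, coeff_C_mul, coeff_rescale, hC]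
    rcases n with _ | n
    · simp [coeff_zero_X_mul]
    · rw [coeff_succ_X_mul, coeff_mk, coeff_mk, ← pow_mul, inv_pow]
      have hne : q ^ (2 * (n + 1)) ≠ 0 := pow_ne_zero _ hq0
      rw [eq_sub_iff_add_eq]
      refine mul_left_cancel₀ hne ?_
      rw [mul_add, ← mul_assoc, mul_inv_cancel₀ hne, one_mul, ← mul_assoc,
        show q ^ (2 * (n + 1)) * q⁻¹ = q ^ (2 * n + 1) by
          rw [show 2 * (n + 1) = 2 * n + 1 + 1 by ring, pow_succ, mul_inv_cancel_right₀ hq0]]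
      linear_combination -cc_succ hq n
  have hD1 : D = (1 - PowerSeries.C q⁻¹ * X) * rescale q⁻¹ D := by
    ext n
    rw [sub_mul, one_mul, map_sub, mul_assoc, coeff_C_mul, coeff_rescale, hD]
    rcases n with _ | n
    · simp [coeff_zero_X_mul]
    · rw [coeff_succ_X_mul, coeff_rescale, coeff_mk, coeff_mk, inv_pow, inv_pow]
      have hne : q ^ (n + 1) ≠ 0 := pow_ne_zero _ hq0
      refine mul_left_cancel₀ hne ?_
      rw [mul_sub, ← mul_assoc (q ^ (n + 1)) (q ^ (n + 1))⁻¹, mul_inv_cancel₀ hne, one_mul,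
        show q ^ (n + 1) * (q⁻¹ * ((q ^ n)⁻¹ * ((-1) ^ n * dd q n))) = (-1) ^ n * dd q n by
          rw [pow_succ]; field_simp, pow_succ (-1 : ℝ)]
      linear_combination -(-1 : ℝ) ^ n * dd_succ hq n
  obtain ⟨P, hP⟩ : ∃ P : ℝ⟦X⟧, P = C * rescale q⁻¹ C * D := ⟨_, rfl⟩
  have hPr : rescale q⁻¹ P = P := by
    rw [hP, map_mul, map_mul, rescale_rescale, ← sq, hC2]
    conv_rhs => rw [hD1]
    ring
  have hP1 : P = 1 := by
    ext n
    rcases n with _ | n
    · rw [hP, hC, hD]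
      simp only [coeff_zero_eq_constantCoeff, map_mul, map_one, ← coeff_zero_eq_constantCoeff_apply, coeff_rescale, coeff_mk, cc, dd,
        pow_zero, mul_one]
    · have := congrArg (coeff (n + 1)) hPr
      rw [coeff_rescale] at this
      rw [coeff_one, if_neg (Nat.succ_ne_zero n)]
      by_contra h0
      exact (pow_lt_one₀ (inv_nonneg.mpr (by linarith)) (inv_lt_one_of_one_lt₀ hq) (Nat.succ_ne_zero n)).ne
        ((mul_eq_right₀ h0).mp this)
  have hE : PowerSeries.mk (ee q) = rescale q⁻¹ C * D * PowerSeries.mk (fun _ => (1 : ℝ)) := by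
    ext n
    rw [coeff_mk, ee_eq hq, coeff_mul, Nat.sum_antidiagonal_eq_sum_range_succ_mk]
    refine sum_congr rfl fun i _ => ?_
    rw [coeff_mk, mul_one, coeff_mul]
    refine sum_congr rfl fun p _ => ?_
    rw [hC, hD, coeff_rescale, coeff_mk, coeff_mk]
    ring
  have hfin : C * PowerSeries.mk (ee q) = PowerSeries.mk (fun _ => (1 : ℝ)) := by
    rw [hE, ← mul_assoc, ← mul_assoc, ← hP, hP1, one_mul]
  have := congrArg (coeff m) hfin
  rw [coeff_mul, coeff_mk] at this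
  rw [← this, hC]
  exact sum_congr rfl fun p _ => by rw [coeff_mk, coeff_mk]

theorem ee_zero (q : ℝ) : ee q 0 = 1 := by simp [ee, dd, aa]

/-- Alternating sum over injective tuples in a space of dimension `d`. -/
theorem moebius {q : ℝ} (hq : 1 < q) (d n : ℕ) (hn : d ≤ n) :
    ∑ k ∈ range (n + 1), (-1) ^ k * dd q k * ∏ i ∈ range k, (q ^ d - q ^ i) = if d = 0 then 1 else 0 := by
  obtain ⟨a, ha⟩ : ∃ a : ℕ → ℕ → ℝ, a = fun d k => dd q k * ∏ i ∈ range k, (q ^ d - q ^ i) := ⟨_, rfl⟩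
  have hzero : ∀ d k, d < k → a d k = 0 := fun d k h => by
    rw [ha]
    exact mul_eq_zero_of_right _ (prod_eq_zero (mem_range.mpr h) (sub_self _))
  have hrec : ∀ d k, a (d + 1) (k + 1) = q ^ (k + 1) * a d (k + 1) + q ^ k * a d k := fun d k => by
    have h1 : ∏ i ∈ range (k + 1), (q ^ (d + 1) - q ^ i) =
        q ^ k * (q ^ (d + 1) - 1) * ∏ i ∈ range k, (q ^ d - q ^ i) := by
      rw [prod_range_succ', pow_zero, prod_congr rfl fun i _ => show q ^ (d + 1) - q ^ (i + 1) = q * (q ^ d - q ^ i) by ring,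
        prod_mul_distrib, prod_const, card_range]
      ring
    refine mul_right_cancel₀ (q_pow_ne hq (n := k + 1) (Nat.succ_ne_zero k)) ?_
    simp only [ha]
    calc dd q (k + 1) * (∏ i ∈ range (k + 1), (q ^ (d + 1) - q ^ i)) * (q ^ (k + 1) - 1)
        = (dd q (k + 1) * (q ^ (k + 1) - 1)) * (∏ i ∈ range (k + 1), (q ^ (d + 1) - q ^ i)) := by ring
      _ = (dd q (k + 1) * (q ^ (k + 1) - 1)) * (q ^ k * (q ^ (d + 1) - 1) * ∏ i ∈ range k, (q ^ d - q ^ i)) := by rw [h1]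
      _ = _ := by rw [prod_range_succ, ← dd_succ hq k]; ring
  have hmain : ∑ k ∈ range (n + 1), (-1) ^ k * a d k = if d = 0 then 1 else 0 := by
    rcases d with _ | d
    · rw [if_pos rfl, sum_eq_single 0 (fun k _ hk => by rw [hzero 0 k (Nat.pos_of_ne_zero hk), mul_zero])
        (fun h => absurd (mem_range.mpr (Nat.succ_pos n)) h), ha]
      simp [dd]
    · rw [if_neg (Nat.succ_ne_zero d)]
      obtain ⟨n, rfl⟩ : ∃ n', n = n' + 1 := ⟨n - 1, by omega⟩
      have h0 : a (d + 1) 0 = 1 := by rw [ha]; simp [dd]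
      have h0' : a d 0 = 1 := by rw [ha]; simp [dd]
      rw [sum_range_succ' _ (n + 1), h0, pow_zero, one_mul]
      have : ∀ k, (-1 : ℝ) ^ (k + 1) * a (d + 1) (k + 1) =
          (-1) ^ (k + 1) * q ^ (k + 1) * a d (k + 1) - (-1) ^ k * q ^ k * a d k := fun k => by rw [hrec]; ring
      rw [sum_congr rfl fun k _ => this k, sum_range_sub (fun k => (-1 : ℝ) ^ k * q ^ k * a d k),
        hzero d (n + 1) (by omega), h0']
      ring
  rw [← hmain, ha]
  exact sum_congr rfl fun k _ => by ring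

end CfsgLib.SpUnipCount
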