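import Cfsg.Agent.SpGeom.Parabolic
import Cfsg.Agent.SpUnipCount.Series

/-!
Orbits of `Sp_2m` on independent tuples are given by Gram matrices.
-/

set_option autoImplicit false

namespace CfsgLib.SpUnipCount

open Matrix CfsgLib.SpGeom

variable {F : Type*} [Field F] {m : ℕ}

local notation "V" => (Fin m ⊕ Fin m → F)
local notation "Sp" => Matrix.symplecticGroup (Fin m) F
local notation "f" => Cfsg.sympForm m F
local notation "mat" A:max => ((A : Sp) : Matrix (Fin m ⊕ Fin m) (Fin m ⊕ Fin m) F)

theorem exists_fix_move_gram {k : ℕ} (w : Fin k → V) {u u' : V}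
    (hu : u ∉ Submodule.span F (Set.range w)) (hu' : u' ∉ Submodule.span F (Set.range w))
    (hp : ∀ i, f u (w i) = f u' (w i)) : ∃ A : Sp, (∀ i, mat A *ᵥ w i = w i) ∧ mat A *ᵥ u = u' := by
  have direct : ∀ a b : V, (∀ i, f a (w i) = f b (w i)) → f a b ≠ 0 →
      ∃ A : Sp, (∀ i, mat A *ᵥ w i = w i) ∧ mat A *ᵥ a = b := by
    intro a b hab h
    refine ⟨tv (b - a) (f a b)⁻¹, fun i => tv_fix _ _ ?_, ?_⟩
    · rw [form_skew, form_sub_left, hab, sub_self, neg_zero]
    · rw [tv_mulVec, form_sub_right, form_self, sub_zero, inv_mul_cancel₀ h, one_smul, add_sub_cancel]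
  by_cases huu : f u u' = 0
  · obtain ⟨a, ha, hau⟩ := exists_perp_sep hu
    obtain ⟨b, hb, hbu⟩ := exists_perp_sep hu'
    obtain ⟨c, hc, hcu, hcu'⟩ : ∃ c, (∀ i, f c (w i) = 0) ∧ f c u ≠ 0 ∧ f c u' ≠ 0 := by
      by_cases h1 : f a u' = 0
      · by_cases h2 : f b u = 0
        · exact ⟨a + b, fun i => by rw [form_add_left, ha, hb, add_zero],
            by rw [form_add_left, h2, add_zero]; exact hau,
            by rw [form_add_left, h1, zero_add]; exact hbu⟩
        · exact ⟨b, hb, h2, hbu⟩
      · exact ⟨a, ha, hau, h1⟩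
    obtain ⟨A, hA, hAu⟩ := direct u (u + c) (fun i => by rw [form_add_left, hc, add_zero])
      (by rw [form_add_right, form_self, zero_add, form_skew, neg_ne_zero]; exact hcu)
    obtain ⟨B, hB, hBz⟩ := direct (u + c) u' (fun i => by rw [form_add_left, hc, add_zero, hp])
      (by rw [form_add_left, huu, zero_add]; exact hcu')
    exact ⟨B * A, fun i => by rw [coe_mul', ← Matrix.mulVec_mulVec, hA, hB],
      by rw [coe_mul', ← Matrix.mulVec_mulVec, hAu, hBz]⟩
  · exact direct u u' hp huu

/-- The Gram matrix of a tuple. -/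
def gram {k : ℕ} (w : Fin k → V) : Matrix (Fin k) (Fin k) F := Matrix.of fun i j => f (w i) (w j)

/-- Witt's theorem: independent tuples with the same Gram matrix are conjugate. -/
theorem exists_move_gram : ∀ {k : ℕ} (w w' : Fin k → V), LinearIndependent F w → LinearIndependent F w' →
    gram w = gram w' → ∃ A : Sp, ∀ i, mat A *ᵥ w i = w' i := by
  intro k
  induction k with
  | zero => exact fun w w' _ _ _ => ⟨1, fun i => i.elim0⟩
  | succ k ih =>
    intro w w' hl hl' hg
    have hg' : ∀ i j, f (w i) (w j) = f (w' i) (w' j) := fun i j => congrFun (congrFun hg i) j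
    rw [← Fin.snoc_init_self w, linearIndependent_finSnoc] at hl
    rw [← Fin.snoc_init_self w', linearIndependent_finSnoc] at hl'
    obtain ⟨A, hA⟩ := ih (Fin.init w) (Fin.init w') hl.1 hl'.1 (by ext i j; exact hg' _ _)
    obtain ⟨u, hu0⟩ : ∃ u, u = mat A *ᵥ w (Fin.last k) := ⟨_, rfl⟩
    have hA' : ∀ i, mat A *ᵥ w (Fin.castSucc i) = w' (Fin.castSucc i) := hA
    have hu : u ∉ Submodule.span F (Set.range (Fin.init w')) := by
      intro h
      apply hl.2
      have h2 : mat A⁻¹ *ᵥ u ∈ (Submodule.span F (Set.range (Fin.init w'))).map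
          (mat A⁻¹).mulVecLin := Submodule.mem_map_of_mem h
      rw [hu0, inv_mulVec, Submodule.map_span] at h2
      refine Submodule.span_mono ?_ h2
      rintro _ ⟨_, ⟨i, rfl⟩, rfl⟩
      refine ⟨i, ?_⟩
      change w (Fin.castSucc i) = mat A⁻¹ *ᵥ w' (Fin.castSucc i)
      rw [← hA', inv_mulVec]
    obtain ⟨B, hB, hBu⟩ := exists_fix_move_gram (Fin.init w') hu hl'.2 (fun i => by
      change f u (w' (Fin.castSucc i)) = f (w' (Fin.last k)) (w' (Fin.castSucc i))
      rw [← hg', ← hA', hu0, form_mulVec])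
    refine ⟨B * A, fun i => ?_⟩
    rw [coe_mul', ← Matrix.mulVec_mulVec]
    refine Fin.lastCases ?_ (fun i => ?_) i
    · rw [← hu0]; exact hBu
    · rw [hA']
      exact hB i

theorem mulVec_linearIndependent {k : ℕ} (A : Sp) {w : Fin k → V} (hw : LinearIndependent F w) :
    LinearIndependent F fun i => mat A *ᵥ w i :=
  hw.map' (mat A).mulVecLin (LinearMap.ker_eq_bot.2 fun a b h => by
    rw [← inv_mulVec A a, ← inv_mulVec A b]
    exact congrArg _ h)

/-- The attainable Gram matrices. -/
def realGram (F : Type*) [Field F] (m k : ℕ) : Set (Matrix (Fin k) (Fin k) F) :=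
  {G | ∃ w : Fin k → (Fin m ⊕ Fin m → F), LinearIndependent F w ∧ gram w = G}

theorem gram_skew {k : ℕ} (w : Fin k → V) (i j : Fin k) : gram w j i = -gram w i j := form_skew _ _

theorem gram_mulVec {k : ℕ} (w : Fin k → V) (c : Fin k → F) (i : Fin k) :
    (gram w *ᵥ c) i = f (w i) (∑ j, c j • w j) := by
  have : f (w i) (∑ j, c j • w j) = ∑ j, c j * f (w i) (w j) := by
    simp [Cfsg.sympForm, Matrix.mulVec_sum, dotProduct_sum, Matrix.mulVec_smul, dotProduct_smul]
  rw [this]
  show ∑ j, f (w i) (w j) * c j = _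
  exact Finset.sum_congr rfl fun j _ => mul_comm _ _

theorem form_sum_left {k : ℕ} (w : Fin k → V) (c : Fin k → F) (v : V) :
    f (∑ i, c i • w i) v = ∑ i, c i * f (w i) v := by
  simp [Cfsg.sympForm, sum_dotProduct]

theorem gram_quad {k : ℕ} (w : Fin k → V) (c : Fin k → F) : c ⬝ᵥ gram w *ᵥ c = 0 := by
  rw [← form_self (∑ j, c j • w j), form_sum_left]
  exact Finset.sum_congr rfl fun i _ => by rw [gram_mulVec]

/-- Adding a row and a column. -/
def extGram {k : ℕ} (G : Matrix (Fin k) (Fin k) F) (φ : Fin k → F) : Matrix (Fin (k + 1)) (Fin (k + 1)) F :=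
  Matrix.of (Fin.snoc (fun i => Fin.snoc (G i) (φ i)) (Fin.snoc (-φ) 0))

theorem gram_snoc {k : ℕ} (w : Fin k → V) (v : V) :
    gram (Fin.snoc w v : Fin (k + 1) → V) = extGram (gram w) (fun i => f (w i) v) := by
  ext i j
  show f ((Fin.snoc w v : Fin (k + 1) → V) i) ((Fin.snoc w v : Fin (k + 1) → V) j) = _
  refine Fin.lastCases ?_ (fun i => ?_) i <;> refine Fin.lastCases ?_ (fun j => ?_) j <;>
    simp [extGram, gram, form_self]
  exact form_skew _ _

theorem extGram_inj {k : ℕ} {G G' : Matrix (Fin k) (Fin k) F} {φ φ' : Fin k → F}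
    (h : extGram G φ = extGram G' φ') : G = G' ∧ φ = φ' := by
  refine ⟨?_, funext fun i => ?_⟩
  · ext i j
    simpa [extGram] using congrFun (congrFun h i.castSucc) j.castSucc
  · simpa [extGram] using congrFun (congrFun h i.castSucc) (Fin.last k)

theorem extGram_mulVec {k : ℕ} (G : Matrix (Fin k) (Fin k) F) (φ c : Fin k → F) (t : F) :
    extGram G φ *ᵥ (Fin.snoc c t : Fin (k + 1) → F) = Fin.snoc (G *ᵥ c + t • φ) (-(φ ⬝ᵥ c)) := by
  funext i
  refine Fin.lastCases ?_ (fun i => ?_) i
  · simp [Matrix.mulVec, dotProduct, Fin.sum_univ_castSucc, extGram]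
  · simp [Matrix.mulVec, dotProduct, Fin.sum_univ_castSucc, extGram, mul_comm t]

theorem snoc_eq_zero {k : ℕ} {a : Fin k → F} {b : F} :
    (Fin.snoc a b : Fin (k + 1) → F) = 0 ↔ a = 0 ∧ b = 0 := by
  constructor
  · intro h
    exact ⟨funext fun i => by simpa using congrFun h i.castSucc, by simpa using congrFun h (Fin.last k)⟩
  · rintro ⟨rfl, rfl⟩
    funext i
    refine Fin.lastCases ?_ (fun i => ?_) i <;> simp

/-- Dimension of the radical. -/
noncomputable def radDim {k : ℕ} (G : Matrix (Fin k) (Fin k) F) : ℕ :=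
  Module.finrank F (LinearMap.ker G.mulVecLin)

theorem radDim_ext {k : ℕ} {G : Matrix (Fin k) (Fin k) F} (hG : G ∈ realGram F m k) (φ : Fin k → F) :
    (φ ∈ LinearMap.range G.mulVecLin → radDim (extGram G φ) = radDim G + 1) ∧
    (φ ∉ LinearMap.range G.mulVecLin → radDim (extGram G φ) + 1 = radDim G) := by
  obtain ⟨w, -, rfl⟩ := hG
  have hskew : (gram w)ᵀ = -gram w := by ext i j; exact gram_skew w i j
  constructor
  · rintro ⟨a, rfl⟩
    let ψ : (LinearMap.ker (gram w).mulVecLin × F) →ₗ[F] (Fin (k + 1) → F) :=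
      { toFun := fun p => Fin.snoc ((p.1 : Fin k → F) - p.2 • a) p.2
        map_add' := fun p p' => by
          funext i
          refine Fin.lastCases ?_ (fun i => ?_) i <;>
            simp
          ring
        map_smul' := fun c p => by
          funext i
          refine Fin.lastCases ?_ (fun i => ?_) i <;>
            simp
          ring }
    have hψ : Function.Injective ψ := by
      rw [injective_iff_map_eq_zero]
      rintro ⟨⟨c, hc⟩, t⟩ h
      have h' : (Fin.snoc (c - t • a) t : Fin (k + 1) → F) = 0 := h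
      obtain ⟨h1, h2⟩ := snoc_eq_zero.mp h'
      subst h2
      simp only [zero_smul, sub_zero] at h1
      subst h1
      rfl
    have hrange : LinearMap.range ψ = LinearMap.ker (extGram (gram w) ((gram w).mulVecLin a)).mulVecLin := by
      ext x
      obtain ⟨c, t, rfl⟩ : ∃ (c : Fin k → F) (t : F), x = Fin.snoc c t :=
        ⟨Fin.init x, x (Fin.last k), (Fin.snoc_init_self x).symm⟩
      rw [LinearMap.mem_ker, Matrix.mulVecLin_apply, extGram_mulVec, snoc_eq_zero, Matrix.mulVecLin_apply,
        ← Matrix.mulVec_smul, ← Matrix.mulVec_add, neg_eq_zero]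
      constructor
      · rintro ⟨⟨⟨c', hc'⟩, t'⟩, h⟩
        have h' : (Fin.snoc (c' - t' • a) t' : Fin (k + 1) → F) = Fin.snoc c t := h
        obtain ⟨h1, h2⟩ : c' - t' • a = c ∧ t' = t :=
          ⟨funext fun i => by simpa using congrFun h' i.castSucc, by simpa using congrFun h' (Fin.last k)⟩
        subst h1 h2
        rw [sub_add_cancel]
        refine ⟨by simpa using hc', ?_⟩
        rw [dotProduct_sub, dotProduct_smul, dotProduct_comm _ a, gram_quad, smul_zero, sub_zero,
          ← Matrix.vecMul_transpose, ← Matrix.dotProduct_mulVec, hskew, Matrix.neg_mulVec,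
          show gram w *ᵥ c' = 0 by simpa using hc', neg_zero, dotProduct_zero]
      · rintro ⟨h1, -⟩
        refine ⟨(⟨c + t • a, by simpa using h1⟩, t), ?_⟩
        show (Fin.snoc (c + t • a - t • a) t : Fin (k + 1) → F) = _
        rw [add_sub_cancel_right]
    rw [radDim, ← hrange, LinearMap.finrank_range_of_inj hψ, Module.finrank_prod, Module.finrank_self, radDim]
  · intro hφ
    obtain ⟨d, hd⟩ : ∃ d : Module.Dual F (LinearMap.ker (gram w).mulVecLin),
        d = (dotProductEquiv F (Fin k) φ).domRestrict _ := ⟨_, rfl⟩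
    have hd0 : d ≠ 0 := by
      intro h0
      refine hφ ?_
      have hmem : dotProductEquiv F (Fin k) φ ∈ LinearMap.range (gram w).mulVecLin.dualMap := by
        rw [LinearMap.range_dualMap_eq_dualAnnihilator_ker, Submodule.mem_dualAnnihilator]
        intro x hx
        have := LinearMap.congr_fun (hd.symm.trans h0) ⟨x, hx⟩
        exact this
      obtain ⟨ψ, hψ⟩ := hmem
      refine ⟨-((dotProductEquiv F (Fin k)).symm ψ), ?_⟩
      refine (dotProductEquiv F (Fin k)).injective (LinearMap.ext fun x => ?_)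
      rw [← hψ, LinearMap.dualMap_apply]
      conv_rhs => rw [← (dotProductEquiv F (Fin k)).apply_symm_apply ψ]
      show ((gram w) *ᵥ -_) ⬝ᵥ x = _ ⬝ᵥ ((gram w) *ᵥ x)
      rw [Matrix.mulVec_neg, neg_dotProduct, ← Matrix.vecMul_transpose, hskew, Matrix.vecMul_neg, neg_dotProduct,
        neg_neg, Matrix.dotProduct_mulVec]
    let ψ : LinearMap.ker d →ₗ[F] (Fin (k + 1) → F) :=
      { toFun := fun p => Fin.snoc ((p.1 : LinearMap.ker (gram w).mulVecLin) : Fin k → F) 0
        map_add' := fun p p' => by
          funext i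
          refine Fin.lastCases ?_ (fun i => ?_) i <;> simp
        map_smul' := fun c p => by
          funext i
          refine Fin.lastCases ?_ (fun i => ?_) i <;> simp }
    have hψ : Function.Injective ψ := fun p p' h => Subtype.ext (Subtype.ext (funext fun i => by
      simpa [ψ] using congrFun h i.castSucc))
    have hrange : LinearMap.range ψ = LinearMap.ker (extGram (gram w) φ).mulVecLin := by
      ext x
      obtain ⟨c, t, rfl⟩ : ∃ (c : Fin k → F) (t : F), x = Fin.snoc c t :=
        ⟨Fin.init x, x (Fin.last k), (Fin.snoc_init_self x).symm⟩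
      rw [LinearMap.mem_ker, Matrix.mulVecLin_apply, extGram_mulVec, snoc_eq_zero, neg_eq_zero]
      constructor
      · rintro ⟨⟨⟨c', hc'⟩, hp⟩, h⟩
        have h' : (Fin.snoc c' 0 : Fin (k + 1) → F) = Fin.snoc c t := h
        obtain ⟨h1, h2⟩ : c' = c ∧ (0 : F) = t :=
          ⟨funext fun i => by simpa using congrFun h' i.castSucc, by simpa using congrFun h' (Fin.last k)⟩
        subst h1 h2
        refine ⟨by simpa using hc', ?_⟩
        rw [hd] at hp
        exact hp
      · rintro ⟨h1, h2⟩
        have ht : t = 0 := by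
          by_contra ht
          refine hφ ⟨-t⁻¹ • c, ?_⟩
          rw [Matrix.mulVecLin_apply, Matrix.mulVec_smul, eq_neg_of_add_eq_zero_left h1, smul_neg, smul_smul, neg_mul,
            inv_mul_cancel₀ ht, neg_smul, one_smul, neg_neg]
        subst ht
        refine ⟨⟨⟨c, by simpa using h1⟩, ?_⟩, rfl⟩
        rw [hd]
        exact h2
    rw [radDim, ← hrange, LinearMap.finrank_range_of_inj hψ, Module.Dual.finrank_ker_add_one_of_ne_zero hd0, radDim]

theorem pairing_surjective {k : ℕ} {w : Fin k → V} (hl : LinearIndependent F w) (φ : Fin k → F) :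
    ∃ v, ∀ i, f (w i) v = φ i := by
  let L : V →ₗ[F] (Fin k → F) :=
    { toFun := fun v i => f (w i) v
      map_add' := fun a b => funext fun i => form_add_right _ _ _
      map_smul' := fun a b => funext fun i => form_smul_right _ _ _ }
  suffices LinearMap.range L = ⊤ by
    obtain ⟨v, hv⟩ := LinearMap.range_eq_top.mp this φ
    exact ⟨v, congrFun hv⟩
  by_contra hne
  obtain ⟨g, hg0, hg⟩ := Submodule.exists_dual_map_eq_bot_of_lt_top (lt_top_iff_ne_top.2 hne) inferInstance
  obtain ⟨c, rfl⟩ := (dotProductEquiv F (Fin k)).surjective g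
  refine hg0 ?_
  have hs : ∑ i, c i • w i = 0 := ext_form fun x => by
    rw [form_zero_left, form_sum_left]
    have h2 : dotProductEquiv F (Fin k) c (L x) ∈ (LinearMap.range L).map (dotProductEquiv F (Fin k) c) :=
      Submodule.mem_map.2 ⟨_, LinearMap.mem_range_self L x, rfl⟩
    rw [hg, Submodule.mem_bot] at h2
    exact h2
  rw [show c = 0 from funext (Fintype.linearIndependent_iff.1 hl c hs), map_zero]

variable [Fintype F]

theorem mem_realGram_ext {k : ℕ} {G : Matrix (Fin k) (Fin k) F} {φ : Fin k → F} :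
    extGram G φ ∈ realGram F m (k + 1) ↔
      G ∈ realGram F m k ∧ (φ ∈ LinearMap.range G.mulVecLin → k + radDim G < 2 * m) := by
  classical
  have hsplit : ∀ {w : Fin k → V}, LinearIndependent F w → ∀ φ : Fin k → F, φ ∈ LinearMap.range (gram w).mulVecLin →
      ((∃ v, v ∉ Submodule.span F (Set.range w) ∧ ∀ i, f (w i) v = φ i) ↔ k + radDim (gram w) < 2 * m) := by
    intro w hl φ hφ
    obtain ⟨a₀, ha₀⟩ := hφ
    obtain ⟨v₀, hv₀⟩ := pairing_surjective hl φ
    let L : V →ₗ[F] (Fin k → F) :=
      { toFun := fun v i => f (w i) v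
        map_add' := fun a b => funext fun i => form_add_right _ _ _
        map_smul' := fun a b => funext fun i => form_smul_right _ _ _ }
    have hL : LinearMap.range L = ⊤ := LinearMap.range_eq_top.mpr fun ψ => by
      obtain ⟨v, hv⟩ := pairing_surjective hl ψ
      exact ⟨v, funext hv⟩
    have hker : Module.finrank F (LinearMap.ker L) + k = 2 * m := by
      have h := LinearMap.finrank_range_add_finrank_ker L
      rw [hL, finrank_top, Module.finrank_fintype_fun_eq_card, Module.finrank_fintype_fun_eq_card,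
        Fintype.card_fin, Fintype.card_sum, Fintype.card_fin] at h
      omega
    let T := Fintype.linearCombination F w
    have hTinj : Function.Injective T := fun a b e => funext (Fintype.linearIndependent_iffₛ.mp hl a b e)
    have hT : ∀ a, L (T a) = gram w *ᵥ a := fun a => funext fun i => (gram_mulVec w a i).symm
    have hmap : (LinearMap.ker (gram w).mulVecLin).map T ≤ LinearMap.ker L := by
      rintro _ ⟨a, ha, rfl⟩
      rw [LinearMap.mem_ker, hT]
      exact ha
    have hdim : Module.finrank F ((LinearMap.ker (gram w).mulVecLin).map T) = radDim (gram w) :=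
      (Submodule.equivMapOfInjective T hTinj _).finrank_eq.symm
    have hspan : Submodule.span F (Set.range w) = LinearMap.range T := (Fintype.range_linearCombination F w).symm
    constructor
    · rintro ⟨v, hv, hvφ⟩
      by_contra hcon
      refine hv ?_
      have heq := Submodule.eq_of_le_of_finrank_le hmap (by omega)
      have h3 : v - T a₀ ∈ LinearMap.ker L := by
        rw [LinearMap.mem_ker, map_sub, hT, show L v = φ from funext hvφ]
        rw [Matrix.mulVecLin_apply] at ha₀
        rw [ha₀, sub_self]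
      rw [← heq] at h3
      obtain ⟨a, -, ha⟩ := h3
      rw [hspan]
      exact ⟨a + a₀, by rw [map_add, ha, sub_add_cancel]⟩
    · intro hlt
      by_contra hcon
      push Not at hcon
      have hle : LinearMap.ker L ≤ (LinearMap.ker (gram w).mulVecLin).map T := by
        intro z hz
        have hmem : ∀ v, L v = φ → ∃ a, T a = v := fun v hv => by
          by_contra h
          obtain ⟨i, hi⟩ := hcon v (by rw [hspan]; exact h)
          exact hi (congrFun hv i)
        obtain ⟨a, ha⟩ := hmem v₀ (funext hv₀)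
        obtain ⟨b, hb⟩ := hmem (v₀ + z) (by rw [map_add, LinearMap.mem_ker.mp hz, add_zero]; exact funext hv₀)
        have hz' : T (b - a) = z := by rw [map_sub, ha, hb, add_sub_cancel_left]
        refine ⟨b - a, ?_, hz'⟩
        rw [SetLike.mem_coe, LinearMap.mem_ker, Matrix.mulVecLin_apply, ← hT, hz', LinearMap.mem_ker.mp hz]
      have := Submodule.finrank_mono hle
      omega
  constructor
  · rintro ⟨w, hl, hw⟩
    rw [← Fin.snoc_init_self w, linearIndependent_finSnoc] at hl
    rw [← Fin.snoc_init_self w, gram_snoc] at hw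
    obtain ⟨h1, h2⟩ := extGram_inj hw
    subst h1 h2
    exact ⟨⟨_, hl.1, rfl⟩, fun hφ => (hsplit hl.1 _ hφ).mp ⟨_, hl.2, fun i => rfl⟩⟩
  · rintro ⟨⟨w, hl, rfl⟩, hcond⟩
    obtain ⟨v, hv, hvφ⟩ : ∃ v, v ∉ Submodule.span F (Set.range w) ∧ ∀ i, f (w i) v = φ i := by
      by_cases hφ : φ ∈ LinearMap.range (gram w).mulVecLin
      · exact (hsplit hl φ hφ).mpr (hcond hφ)
      · obtain ⟨v, hv⟩ := pairing_surjective hl φ
        refine ⟨v, fun hmem => hφ ?_, hv⟩
        obtain ⟨a, ha⟩ := (Submodule.mem_span_range_iff_exists_fun F).1 hmem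
        exact ⟨a, funext fun i => by rw [Matrix.mulVecLin_apply, gram_mulVec, ha, hv]⟩
    refine ⟨Fin.snoc w v, linearIndependent_finSnoc.mpr ⟨hl, hv⟩, ?_⟩
    rw [gram_snoc, funext hvφ]

end CfsgLib.SpUnipCount
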