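import Cfsg.Agent.SpUnipCount.Fixed
import Cfsg.Agent.Forms.SympEmbed
import Cfsg.Agent.Symp.Basic

/-!
Splitting a symplectic matrix at the generalised eigenvalue one.
-/

set_option autoImplicit false

namespace CfsgLib.SpUnipCount

open Matrix CfsgLib.SpGeom CfsgLib.Symp

variable {F : Type*} [Field F] {m : ℕ}

local notation "V" => (Fin m ⊕ Fin m → F)
local notation "Sp" => Matrix.symplecticGroup (Fin m) F
local notation "f" => Cfsg.sympForm m F
local notation "mat" A:max => ((A : Sp) : Matrix (Fin m ⊕ Fin m) (Fin m ⊕ Fin m) F)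

/-- Vector with two blocks. -/
def blockVec {a b n : ℕ} (h : a + b = n) (x : Fin a ⊕ Fin a → F) (y : Fin b ⊕ Fin b → F) : Fin n ⊕ Fin n → F :=
  Sum.elim x y ∘ (blockEquiv h).symm

theorem blockVec_surj {a b n : ℕ} (h : a + b = n) (v : Fin n ⊕ Fin n → F) : ∃ x y, blockVec h x y = v :=
  ⟨fun i => v (blockEquiv h (.inl i)), fun i => v (blockEquiv h (.inr i)), funext fun j => by
    obtain ⟨j', rfl⟩ := (blockEquiv h).surjective j
    simp only [blockVec, Function.comp_apply, Equiv.symm_apply_apply]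
    cases j' <;> rfl⟩

theorem blockVec_inj {a b n : ℕ} (h : a + b = n) {x x' : Fin a ⊕ Fin a → F} {y y' : Fin b ⊕ Fin b → F}
    (e : blockVec h x y = blockVec h x' y') : x = x' ∧ y = y' := by
  refine ⟨funext fun i => ?_, funext fun i => ?_⟩
  · simpa [blockVec] using congrFun e (blockEquiv h (.inl i))
  · simpa [blockVec] using congrFun e (blockEquiv h (.inr i))

theorem reindex_mulVec {a b n : ℕ} (h : a + b = n)
    (M : Matrix ((Fin a ⊕ Fin a) ⊕ (Fin b ⊕ Fin b)) ((Fin a ⊕ Fin a) ⊕ (Fin b ⊕ Fin b)) F)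
    (x : Fin a ⊕ Fin a → F) (y : Fin b ⊕ Fin b → F) :
    Matrix.reindex (blockEquiv h) (blockEquiv h) M *ᵥ blockVec h x y = (M *ᵥ Sum.elim x y) ∘ (blockEquiv h).symm := by
  rw [Matrix.reindex_apply, Matrix.submatrix_mulVec_equiv, blockVec, Equiv.symm_symm, Function.comp_assoc,
    Equiv.symm_comp_self, Function.comp_id]

theorem blockMat_mulVec {a b n : ℕ} (h : a + b = n) (A : Matrix (Fin a ⊕ Fin a) (Fin a ⊕ Fin a) F)
    (B : Matrix (Fin b ⊕ Fin b) (Fin b ⊕ Fin b) F) (x : Fin a ⊕ Fin a → F) (y : Fin b ⊕ Fin b → F) :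
    blockMat h A B *ᵥ blockVec h x y = blockVec h (A *ᵥ x) (B *ᵥ y) := by
  rw [blockMat, reindex_mulVec, Matrix.fromBlocks_mulVec, blockVec]
  simp

theorem form_blockVec {a b n : ℕ} (h : a + b = n) (x x' : Fin a ⊕ Fin a → F) (y y' : Fin b ⊕ Fin b → F) :
    Cfsg.sympForm n F (blockVec h x y) (blockVec h x' y') = Cfsg.sympForm a F x x' + Cfsg.sympForm b F y y' := by
  unfold Cfsg.sympForm
  rw [← J_block h, reindex_mulVec, blockVec, comp_equiv_symm_dotProduct, Function.comp_assoc, Equiv.symm_comp_self,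
    Function.comp_id, Matrix.fromBlocks_mulVec]
  simp

theorem blockMat_pow {a b n : ℕ} (h : a + b = n) (A : Matrix (Fin a ⊕ Fin a) (Fin a ⊕ Fin a) F)
    (B : Matrix (Fin b ⊕ Fin b) (Fin b ⊕ Fin b) F) (j : ℕ) : blockMat h A B ^ j = blockMat h (A ^ j) (B ^ j) := by
  induction j with
  | zero => simp [blockMat_one]
  | succ j ih => rw [pow_succ, ih, blockMat_mul, pow_succ, pow_succ]

theorem blockMat_sub_one {a b n : ℕ} (h : a + b = n) (A : Matrix (Fin a ⊕ Fin a) (Fin a ⊕ Fin a) F)
    (B : Matrix (Fin b ⊕ Fin b) (Fin b ⊕ Fin b) F) : blockMat h A B - 1 = blockMat h (A - 1) (B - 1) := by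
  rw [← blockMat_one h]
  ext i j
  simp only [blockMat, Matrix.reindex_apply, Matrix.sub_apply, Matrix.submatrix_apply]
  rcases (blockEquiv h).symm i <;> rcases (blockEquiv h).symm j <;> simp

theorem ker_pow_stable {ι : Type*} [Fintype ι] [DecidableEq ι] (N : Matrix ι ι F) {j : ℕ} (hj : Fintype.card ι ≤ j) :
    LinearMap.ker (N ^ j).mulVecLin = LinearMap.ker (N ^ Fintype.card ι).mulVecLin := by
  have hgen : ∀ L : Module.End F (ι → F), LinearMap.ker (L ^ j) = LinearMap.ker (L ^ Module.finrank F (ι → F)) :=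
    fun L => Module.End.ker_pow_eq_ker_pow_finrank_of_le (by rw [Module.finrank_pi]; exact hj)
  have h := hgen (Matrix.toLin' N)
  rw [Module.finrank_pi, ← Matrix.toLin'_pow, ← Matrix.toLin'_pow] at h
  exact h

theorem pow_eq_zero_of_nilpotent {ι : Type*} [Fintype ι] [DecidableEq ι] {N : Matrix ι ι F} (hN : IsNilpotent N)
    {j : ℕ} (hj : Fintype.card ι ≤ j) : N ^ j = 0 := by
  obtain ⟨k, hk⟩ := hN
  have h1 : N ^ (j + k) = 0 := by rw [pow_add, hk, mul_zero]
  have h2 := ker_pow_stable N (j := j + k) (by omega)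
  rw [← ker_pow_stable N hj, h1, Matrix.mulVecLin_zero, LinearMap.ker_zero, eq_comm, LinearMap.ker_eq_top] at h2
  refine Matrix.ext_iff_mulVec.2 fun v => ?_
  rw [Matrix.zero_mulVec]
  exact LinearMap.congr_fun h2 v

/-- The generalised eigenspace of one. -/
noncomputable def fixOne (g : Sp) : Submodule F V := LinearMap.ker ((mat g - 1) ^ (2 * m)).mulVecLin

theorem fixOne_stable (g : Sp) (u : V) (hu : u ∈ fixOne g) : mat g *ᵥ u ∈ fixOne g := by
  simp only [fixOne, LinearMap.mem_ker, Matrix.mulVecLin_apply] at hu ⊢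
  rw [Matrix.mulVec_mulVec, (((Commute.refl (mat g)).sub_left (Commute.one_left _)).pow_left _).eq,
    ← Matrix.mulVec_mulVec, hu, Matrix.mulVec_zero]

theorem form_move (g : Sp) : ∀ (j : ℕ) (u v : V),
    f (((mat g - 1) ^ j) *ᵥ u) v = f u (((mat g⁻¹ - 1) ^ j) *ᵥ v)
  | 0, u, v => by simp
  | j + 1, u, v => by
    rw [pow_succ, ← Matrix.mulVec_mulVec, form_move g j, pow_succ', ← Matrix.mulVec_mulVec, Matrix.sub_mulVec,
      Matrix.one_mulVec, Matrix.sub_mulVec, Matrix.one_mulVec, form_sub_left, form_sub_right]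
    congr 1
    conv_lhs => rw [← mulVec_inv g (((mat g⁻¹ - 1) ^ j) *ᵥ v)]
    exact form_mulVec g _ _

theorem form_range_fixOne (g : Sp) (u v : V) (hv : v ∈ fixOne g) : f (((mat g - 1) ^ (2 * m)) *ᵥ u) v = 0 := by
  rw [form_move]
  have h1 : mat g⁻¹ * mat g = 1 := by rw [← coe_mul', inv_mul_cancel, coe_one']
  have h2 : mat g * mat g⁻¹ = 1 := by rw [← coe_mul', mul_inv_cancel, coe_one']
  have e : mat g⁻¹ - 1 = -mat g⁻¹ * (mat g - 1) := by
    rw [neg_mul, mul_sub, h1, mul_one, neg_sub]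
  have hc : Commute (-mat g⁻¹) (mat g - 1) := by
    refine Commute.neg_left (Commute.sub_right ?_ (Commute.one_right _))
    exact h1.trans h2.symm
  simp only [fixOne, LinearMap.mem_ker, Matrix.mulVecLin_apply] at hv
  rw [e, hc.mul_pow, ← Matrix.mulVec_mulVec, hv, Matrix.mulVec_zero, form_zero_right]

theorem fixOne_nondeg (g : Sp) (u : V) (hu : u ∈ fixOne g) (h : ∀ v ∈ fixOne g, f u v = 0) : u = 0 := by
  obtain ⟨L, hL⟩ : ∃ L : V →ₗ[F] V, L = ((mat g - 1) ^ (2 * m)).mulVecLin := ⟨_, rfl⟩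
  have hdis : LinearMap.ker L ⊓ LinearMap.range L = ⊥ := by
    rw [Submodule.eq_bot_iff]
    rintro z ⟨hz, z₀, rfl⟩
    have h2 : z₀ ∈ LinearMap.ker ((mat g - 1) ^ (2 * m + 2 * m)).mulVecLin := by
      rw [LinearMap.mem_ker, pow_add, Matrix.mulVecLin_mul]
      rw [hL] at hz
      exact hz
    rw [ker_pow_stable _ (by simp; omega), Fintype.card_sum, Fintype.card_fin, ← two_mul, ← hL] at h2
    exact h2
  have htop : LinearMap.ker L ⊔ LinearMap.range L = ⊤ := by
    refine Submodule.eq_top_of_finrank_eq ?_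
    have := Submodule.finrank_sup_add_finrank_inf_eq (LinearMap.ker L) (LinearMap.range L)
    rw [hdis, finrank_bot] at this
    have h2 := LinearMap.finrank_range_add_finrank_ker L
    omega
  refine ext_form fun x => ?_
  rw [form_zero_left]
  obtain ⟨a, ha, b, ⟨b₀, rfl⟩, rfl⟩ := Submodule.mem_sup.mp (htop ▸ Submodule.mem_top : x ∈ LinearMap.ker L ⊔ LinearMap.range L)
  rw [form_add_right, h a (by rw [fixOne, ← hL]; exact ha), zero_add, form_skew, hL, Matrix.mulVecLin_apply,
    form_range_fixOne g _ _ hu, neg_zero]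

variable (F m) in
/-- Isometric embeddings of `F^{2a}`. -/
abbrev Isom (a : ℕ) := {L : (Fin a ⊕ Fin a → F) →ₗ[F] (Fin m ⊕ Fin m → F) //
  ∀ x y, Cfsg.sympForm m F (L x) (L y) = Cfsg.sympForm a F x y}

theorem Isom.injective {a : ℕ} (L : Isom F m a) : Function.Injective L.1 := fun x y h => ext_form fun z => by
  rw [← L.2, ← L.2, h]

theorem exists_fixOne_coord (g : Sp) : ∃ a, Module.finrank F (fixOne g) = 2 * a ∧
    ∃ L : Isom F m a, LinearMap.range L.1 = fixOne g := by
  let B : LinearMap.BilinForm F (fixOne g) := LinearMap.mk₂ F (fun u v => f u.1 v.1)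
    (fun _ _ _ => form_add_left _ _ _) (fun _ _ _ => form_smul_left _ _ _)
    (fun _ _ _ => form_add_right _ _ _) (fun _ _ _ => form_smul_right _ _ _)
  have hA : B.IsAlt := fun u => form_self _
  have hB : B.SeparatingLeft := fun u hu => Subtype.ext (fixOne_nondeg g _ u.2 fun v hv => hu ⟨v, hv⟩)
  obtain ⟨k₀, k, b, -, -, -, hrad⟩ := Cfsg.Agent.S0752.result B hA
  have hk : k = 0 := by
    rcases Nat.eq_zero_or_pos k with h | h
    · exact h
    · exact absurd (hB _ (hrad ⟨0, h⟩)) (b.ne_zero _)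
  subst hk
  have hdim : Module.finrank F (fixOne g) = 2 * k₀ := by
    rw [Module.finrank_eq_card_basis b]; simp; omega
  obtain ⟨e, he⟩ := CfsgLib.Forms.exists_symp_coord hdim B hA hB
  refine ⟨k₀, hdim, ⟨(fixOne g).subtype ∘ₗ e.symm.toLinearMap, fun x y => ?_⟩, ?_⟩
  · conv_rhs => rw [← e.apply_symm_apply x, ← e.apply_symm_apply y, he]
    rfl
  · rw [LinearMap.range_comp, LinearEquiv.range, Submodule.map_top, Submodule.range_subtype]

/-- The standard embedding. -/
def stdIsom {a b : ℕ} (h : a + b = m) : Isom F m a :=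
  ⟨{ toFun := fun x => blockVec h x 0
     map_add' := fun x y => funext fun j => by
       simp only [blockVec, Function.comp_apply, Pi.add_apply]
       cases (blockEquiv h).symm j <;> simp
     map_smul' := fun c x => funext fun j => by
       simp only [blockVec, Function.comp_apply, Pi.smul_apply, RingHom.id_apply]
       cases (blockEquiv h).symm j <;> simp },
    fun x y => by
      show Cfsg.sympForm m F (blockVec h x 0) (blockVec h y 0) = _
      rw [form_blockVec h, show Cfsg.sympForm b F (0 : Fin b ⊕ Fin b → F) 0 = 0 from form_zero_left _, add_zero]⟩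

theorem exists_blocks {a b : ℕ} (h : a + b = m) [Finite F] (g : Sp)
    (hg : ∀ x, mat g *ᵥ blockVec h x 0 ∈ LinearMap.range (stdIsom h).1) :
    ∃ (x : Matrix.symplecticGroup (Fin a) F) (y : Matrix.symplecticGroup (Fin b) F), g = spBlock F h (x, y) := by
  choose φ hφ using hg
  have hφ' : ∀ x, blockVec h (φ x) 0 = mat g *ᵥ blockVec h x 0 := hφ
  have hφs : Function.Surjective φ := Finite.injective_iff_surjective.mp fun x x' e => by
    have := hφ' x
    rw [e, hφ'] at this
    have e2 := congrArg (fun v => mat g⁻¹ *ᵥ v) this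
    simp only [inv_mulVec] at e2
    exact (blockVec_inj h e2).1.symm
  obtain ⟨M, hM⟩ : ∃ M, M = (Matrix.reindex (blockEquiv h) (blockEquiv h)).symm g.1 := ⟨_, rfl⟩
  have hgM : mat g = Matrix.reindex (blockEquiv h) (blockEquiv h) M := by rw [hM, Equiv.apply_symm_apply]
  have hmv : ∀ x y, mat g *ᵥ blockVec h x y = blockVec h (M.toBlocks₁₁ *ᵥ x + M.toBlocks₁₂ *ᵥ y)
      (M.toBlocks₂₁ *ᵥ x + M.toBlocks₂₂ *ᵥ y) := fun x y => by
    rw [hgM, reindex_mulVec]
    conv_lhs => rw [← Matrix.fromBlocks_toBlocks M, Matrix.fromBlocks_mulVec]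
    simp [blockVec]
  have h21 : M.toBlocks₂₁ = 0 := Matrix.ext_iff_mulVec.2 fun x => by
    have := hφ' x
    rw [hmv] at this
    have e := (blockVec_inj h this).2
    simp only [Matrix.mulVec_zero, add_zero] at e
    rw [Matrix.zero_mulVec, ← e]
  have h12 : M.toBlocks₁₂ = 0 := Matrix.ext_iff_mulVec.2 fun y => by
    rw [Matrix.zero_mulVec]
    refine ext_form fun x' => ?_
    rw [form_zero_left]
    obtain ⟨x, rfl⟩ := hφs x'
    have h1 := form_mulVec g (blockVec h 0 y) (blockVec h x 0)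
    rw [← hφ', hmv, form_blockVec h, form_blockVec h] at h1
    simpa [form_zero_left, form_zero_right] using h1
  have hblock : mat g = blockMat h M.toBlocks₁₁ M.toBlocks₂₂ := by
    rw [hgM, blockMat]
    conv_lhs => rw [← Matrix.fromBlocks_toBlocks M, h12, h21]
  refine ⟨⟨M.toBlocks₁₁, mem_of_form fun u v => ?_⟩, ⟨M.toBlocks₂₂, mem_of_form fun u v => ?_⟩, Subtype.ext hblock⟩
  · have h1 := form_mulVec g (blockVec h u 0) (blockVec h v 0)
    rw [hblock, blockMat_mulVec, blockMat_mulVec, form_blockVec h, form_blockVec h] at h1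
    simpa [form_zero_left] using h1
  · have h1 := form_mulVec g (blockVec h 0 u) (blockVec h 0 v)
    rw [hblock, blockMat_mulVec, blockMat_mulVec, form_blockVec h, form_blockVec h] at h1
    simpa [form_zero_left] using h1

theorem fixOne_block {a b : ℕ} (h : a + b = m) (x : Matrix.symplecticGroup (Fin a) F)
    (y : Matrix.symplecticGroup (Fin b) F) :
    fixOne (spBlock F h (x, y)) = LinearMap.range (stdIsom h).1 ↔
      IsNilpotent (x.1 - 1) ∧ ∀ v, y.1 *ᵥ v = v → v = 0 := by
  have hmat : ∀ u v, ((mat (spBlock F h (x, y)) - 1) ^ (2 * m)) *ᵥ blockVec h u v =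
      blockVec h ((x.1 - 1) ^ (2 * m) *ᵥ u) ((y.1 - 1) ^ (2 * m) *ᵥ v) := fun u v => by
    show ((blockMat h x.1 y.1 - 1) ^ (2 * m)) *ᵥ _ = _
    rw [blockMat_sub_one, blockMat_pow, blockMat_mulVec]
  have hzero : blockVec (F := F) h 0 0 = 0 := funext fun j => by
    simp only [blockVec, Function.comp_apply]
    cases (blockEquiv h).symm j <;> rfl
  constructor
  · intro e
    refine ⟨⟨2 * m, Matrix.ext_iff_mulVec.2 fun u => ?_⟩, fun v hv => ?_⟩
    · have h1 : blockVec h u 0 ∈ fixOne (spBlock F h (x, y)) := by rw [e]; exact ⟨u, rfl⟩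
      rw [fixOne, LinearMap.mem_ker, Matrix.mulVecLin_apply, hmat, ← hzero] at h1
      rw [Matrix.zero_mulVec]
      exact (blockVec_inj h h1).1
    · by_cases hm : m = 0
      · have : b = 0 := by omega
        subst this
        exact funext fun i => by rcases i with i | i <;> exact i.elim0
      · have h1 : blockVec h 0 v ∈ fixOne (spBlock F h (x, y)) := by
          rw [fixOne, LinearMap.mem_ker, Matrix.mulVecLin_apply, hmat, Matrix.mulVec_zero,
            show 2 * m = 2 * m - 1 + 1 by omega, pow_succ, ← Matrix.mulVec_mulVec, Matrix.sub_mulVec, Matrix.one_mulVec,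
            hv, sub_self, Matrix.mulVec_zero, hzero]
        rw [e] at h1
        obtain ⟨u, hu⟩ := h1
        exact ((blockVec_inj h (hu : blockVec h u 0 = blockVec h 0 v)).2).symm
  · rintro ⟨hx, hy⟩
    have hinj : ∀ (j : ℕ) v, ((y.1 - 1) ^ j) *ᵥ v = 0 → v = 0 := fun j => by
      induction j with
      | zero => intro v hv; simpa using hv
      | succ j ih =>
        intro v hv
        rw [pow_succ, ← Matrix.mulVec_mulVec] at hv
        have := ih _ hv
        rw [Matrix.sub_mulVec, Matrix.one_mulVec, sub_eq_zero] at this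
        exact hy v this
    ext w
    obtain ⟨u, v, rfl⟩ := blockVec_surj h w
    rw [fixOne, LinearMap.mem_ker, Matrix.mulVecLin_apply, hmat,
      pow_eq_zero_of_nilpotent hx (j := 2 * m) (by simp; omega), Matrix.zero_mulVec, ← hzero]
    constructor
    · intro e
      exact ⟨u, by rw [hinj _ v (blockVec_inj h e).2]; rfl⟩
    · rintro ⟨u', hu'⟩
      obtain ⟨-, rfl⟩ := blockVec_inj h (hu' : blockVec h u' 0 = blockVec h u v)
      rw [Matrix.mulVec_zero]

end CfsgLib.SpUnipCount
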