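import Cfsg.Agent.SpUnipCount.Orbits

/-!
The symplectic matrices without non-zero fixed vectors.
-/

set_option autoImplicit false

namespace CfsgLib.SpUnipCount

open Matrix CfsgLib.SpGeom

variable {F : Type*} [Field F] [Fintype F] {m : ℕ}

local notation "V" => (Fin m ⊕ Fin m → F)
local notation "Sp" => Matrix.symplecticGroup (Fin m) F
local notation "f" => Cfsg.sympForm m F
local notation "mat" A:max => ((A : Sp) : Matrix (Fin m ⊕ Fin m) (Fin m ⊕ Fin m) F)

theorem card_range_mulVecLin {k : ℕ} (G : Matrix (Fin k) (Fin k) F) :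
    Nat.card (LinearMap.range G.mulVecLin) = Fintype.card F ^ (k - radDim G) := by
  rw [Module.natCard_eq_pow_finrank (K := F), Nat.card_eq_fintype_card (α := F)]
  congr 1
  have h := LinearMap.finrank_range_add_finrank_ker G.mulVecLin
  rw [Module.finrank_pi, Fintype.card_fin] at h
  rw [radDim]
  omega

theorem card_not_range {k : ℕ} (G : Matrix (Fin k) (Fin k) F) :
    Nat.card {φ : Fin k → F // φ ∉ LinearMap.range G.mulVecLin} =
      Fintype.card F ^ k - Fintype.card F ^ (k - radDim G) := by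
  classical
  rw [← card_range_mulVecLin, Nat.card_eq_fintype_card, Nat.card_eq_fintype_card,
    Fintype.card_subtype_compl, Fintype.card_fun, Fintype.card_fin]

variable (F m) in
/-- Attainable Gram matrices with radical of dimension `s`. -/
abbrev Rs (k s : ℕ) := {G : Matrix (Fin k) (Fin k) F // G ∈ realGram F m k ∧ radDim G = s}

theorem card_Rs : ∀ k s, (Nat.card (Rs F m k s) : ℝ) =
    if k + s ≤ 2 * m then aa (Fintype.card F : ℝ) k s else 0 := by
  classical
  intro k
  induction k with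
  | zero =>
    intro s
    have hz : ∀ G : Matrix (Fin 0) (Fin 0) F, G ∈ realGram F m 0 ∧ radDim G = 0 := fun G => by
      refine ⟨⟨fun i => i.elim0, linearIndependent_empty_type, ?_⟩, ?_⟩
      · ext i; exact i.elim0
      · have := Submodule.finrank_le (LinearMap.ker G.mulVecLin)
        rw [Module.finrank_pi, Fintype.card_fin] at this
        rw [radDim]; omega
    rcases s with _ | s
    · have : Nat.card (Rs F m 0 0) = 1 := Nat.card_eq_one_iff_unique.mpr
        ⟨⟨fun a b => Subtype.ext (Subsingleton.elim _ _)⟩, ⟨⟨0, hz 0⟩⟩⟩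
      rw [this, if_pos (Nat.zero_le _), aa, Nat.cast_one]
    · have : IsEmpty (Rs F m 0 (s + 1)) := ⟨fun G => by have := (hz G.1).2; have := G.2.2; omega⟩
      rw [Nat.card_of_isEmpty, Nat.cast_zero]
      split_ifs <;> simp [aa]
  | succ k ih =>
    intro s
    have hinit : ∀ G : Rs F m (k + 1) s, ∃ G₀ φ, G.1 = extGram G₀ φ := fun G => by
      obtain ⟨w, -, hw⟩ := G.2.1
      exact ⟨_, _, by rw [← hw, ← Fin.snoc_init_self w, gram_snoc]⟩
    choose G₀ φ hG using hinit
    let A := Σ G : {G : Matrix (Fin k) (Fin k) F // G ∈ realGram F m k ∧ radDim G + 1 = s},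
      {ψ : Fin k → F // ψ ∈ LinearMap.range G.1.mulVecLin ∧ k + radDim G.1 < 2 * m}
    let B := Σ G : Rs F m k (s + 1), {ψ : Fin k → F // ψ ∉ LinearMap.range G.1.mulVecLin}
    let Ψ : A ⊕ B → Matrix (Fin (k + 1)) (Fin (k + 1)) F := Sum.elim (fun a => extGram a.1.1 a.2.1) (fun b => extGram b.1.1 b.2.1)
    have hΨ : ∀ x, Ψ x ∈ realGram F m (k + 1) ∧ radDim (Ψ x) = s := by
      rintro (⟨⟨G, hG1, hG2⟩, ψ, hψ, hlt⟩ | ⟨⟨G, hG1, hG2⟩, ψ, hψ⟩)
      · exact ⟨mem_realGram_ext.mpr ⟨hG1, fun _ => hlt⟩, ((radDim_ext hG1 ψ).1 hψ).trans hG2⟩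
      · have := (radDim_ext hG1 ψ).2 hψ
        exact ⟨mem_realGram_ext.mpr ⟨hG1, fun h => absurd h hψ⟩, by
          show radDim (extGram G ψ) = s
          omega⟩
    have hbij : Function.Bijective fun x => (⟨Ψ x, hΨ x⟩ : Rs F m (k + 1) s) := by
      constructor
      · rintro (⟨⟨G, hG1⟩, ψ, hψ⟩ | ⟨⟨G, hG1⟩, ψ, hψ⟩) (⟨⟨G', hG1'⟩, ψ', hψ'⟩ | ⟨⟨G', hG1'⟩, ψ', hψ'⟩) h <;>
          obtain ⟨e1, e2⟩ := extGram_inj (congrArg Subtype.val h) <;> dsimp only at hψ hψ' e1 e2 <;> subst e1 e2
        · rfl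
        · exact absurd hψ.1 hψ'
        · exact absurd hψ'.1 hψ
        · rfl
      · intro G
        obtain ⟨h1, h2⟩ := G.2
        rw [hG G] at h1 h2
        obtain ⟨h3, h4⟩ := mem_realGram_ext.mp h1
        by_cases hr : φ G ∈ LinearMap.range (G₀ G).mulVecLin
        · have := (radDim_ext h3 (φ G)).1 hr
          exact ⟨Sum.inl ⟨⟨G₀ G, h3, by omega⟩, φ G, hr, h4 hr⟩, Subtype.ext (hG G).symm⟩
        · have := (radDim_ext h3 (φ G)).2 hr
          exact ⟨Sum.inr ⟨⟨G₀ G, h3, by omega⟩, φ G, hr⟩, Subtype.ext (hG G).symm⟩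
    rw [← Nat.card_eq_of_bijective _ hbij, Nat.card_sum, Nat.cast_add]
    have hB : (Nat.card B : ℝ) = ((Fintype.card F : ℝ) ^ k - (Fintype.card F : ℝ) ^ (k - (s + 1))) *
        (if k + (s + 1) ≤ 2 * m then aa (Fintype.card F : ℝ) k (s + 1) else 0) := by
      rw [← ih]
      have : ∀ G : Rs F m k (s + 1), Nat.card {ψ : Fin k → F // ψ ∉ LinearMap.range G.1.mulVecLin} =
          Fintype.card F ^ k - Fintype.card F ^ (k - (s + 1)) := fun G => by rw [card_not_range, G.2.2]
      rw [Nat.card_sigma, Finset.sum_congr rfl fun G _ => this G, Finset.sum_const, smul_eq_mul, Finset.card_univ,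
        ← Nat.card_eq_fintype_card, Nat.cast_mul, Nat.cast_sub (Nat.pow_le_pow_right Fintype.card_pos (Nat.sub_le _ _)),
        Nat.cast_pow, Nat.cast_pow, mul_comm]
    rw [hB]
    rcases s with _ | s
    · have : IsEmpty A := ⟨fun a => Nat.succ_ne_zero _ a.1.2.2⟩
      rw [Nat.card_of_isEmpty, Nat.cast_zero, zero_add, aa]
      split_ifs <;> first | rfl | simp
      all_goals omega
    · have hA : (Nat.card A : ℝ) = if k + s < 2 * m then
          (Fintype.card F : ℝ) ^ (k - s) * aa (Fintype.card F : ℝ) k s else 0 := by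
        by_cases hlt : k + s < 2 * m
        · rw [if_pos hlt]
          have hle : k + s ≤ 2 * m := hlt.le
          have e := ih s
          rw [if_pos hle] at e
          rw [← e]
          have hcard : ∀ G : {G : Matrix (Fin k) (Fin k) F // G ∈ realGram F m k ∧ radDim G + 1 = s + 1},
              Nat.card {ψ : Fin k → F // ψ ∈ LinearMap.range G.1.mulVecLin ∧ k + radDim G.1 < 2 * m} =
                Fintype.card F ^ (k - s) := fun G => by
            have hs : radDim G.1 = s := Nat.succ_injective G.2.2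
            rw [Nat.card_congr (Equiv.subtypeEquivRight fun ψ => and_iff_left (by omega : k + radDim G.1 < 2 * m))]
            exact (card_range_mulVecLin G.1).trans (by rw [hs])
          rw [Nat.card_sigma, Finset.sum_congr rfl fun G _ => hcard G, Finset.sum_const, smul_eq_mul, Finset.card_univ,
            ← Nat.card_eq_fintype_card, Nat.cast_mul, Nat.cast_pow, mul_comm]
          congr 2
          exact Nat.card_congr (Equiv.subtypeEquivRight fun G => and_congr_right fun _ => Nat.succ_inj)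
        · rw [if_neg hlt]
          have : IsEmpty A := ⟨fun a => hlt (by have h1 := a.1.2.2; have h2 := a.2.2.2; omega)⟩
          rw [Nat.card_of_isEmpty, Nat.cast_zero]
      rw [hA]
      conv_rhs => rw [aa]
      have hpar : k + s + 1 = 2 * m → aa (Fintype.card F : ℝ) k s = 0 := fun h =>
        (aa_closed (by exact_mod_cast Fintype.one_lt_card) k s).2 fun r hr => by omega
      split_ifs <;> first | rfl | ring1 | omega | (rw [hpar (by omega)]; ring1)

variable (F m) in
/-- Independent tuples. -/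
abbrev Tup (k : ℕ) := {w : Fin k → (Fin m ⊕ Fin m → F) // LinearIndependent F w}

theorem sum_fix (k : ℕ) [Fintype Sp] :
    ∑ g : Sp, Nat.card {w : Tup F m k // ∀ i, mat g *ᵥ w.1 i = w.1 i} =
      Nat.card (realGram F m k) * Nat.card Sp := by
  classical
  choose base hbase hgram using fun G : realGram F m k => G.2
  choose sec hsec using fun w : Tup F m k => exists_move_gram (base ⟨gram w.1, w.1, w.2, rfl⟩) w.1
    (hbase _) w.2 (hgram _)
  rw [← Nat.card_sigma, ← Nat.card_prod]
  refine Nat.card_congr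
    { toFun := fun p => (⟨gram p.2.1.1, p.2.1.1, p.2.1.2, rfl⟩, p.1 * sec p.2.1)
      invFun := fun x => ⟨x.2 * (sec ⟨_, mulVec_linearIndependent x.2 (hbase x.1)⟩)⁻¹,
        ⟨⟨_, mulVec_linearIndependent x.2 (hbase x.1)⟩, fun i => ?_⟩⟩
      left_inv := ?_
      right_inv := ?_ }
  · have h : (⟨gram fun i => mat x.2 *ᵥ base x.1 i, _, mulVec_linearIndependent x.2 (hbase x.1), rfl⟩ :
        realGram F m k) = x.1 := Subtype.ext (by
      conv_rhs => rw [← hgram x.1]
      ext i j; exact form_mulVec _ _ _)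
    obtain ⟨S, hS, hS'⟩ : ∃ S : Sp, S = sec ⟨_, mulVec_linearIndependent x.2 (hbase x.1)⟩ ∧
        ∀ i, mat S *ᵥ base x.1 i = mat x.2 *ᵥ base x.1 i := ⟨_, rfl, fun i => by
      have := hsec ⟨_, mulVec_linearIndependent x.2 (hbase x.1)⟩ i
      rwa [h] at this⟩
    rw [← hS]
    show mat (x.2 * S⁻¹) *ᵥ (mat x.2 *ᵥ base x.1 i) = mat x.2 *ᵥ base x.1 i
    rw [coe_mul', ← Matrix.mulVec_mulVec, ← hS' i, inv_mulVec]
    exact (hS' i).symm
  · rintro ⟨g, ⟨w, hw⟩, hfix⟩
    have e : (⟨fun i => mat (g * sec ⟨w, hw⟩) *ᵥ base ⟨gram w, w, hw, rfl⟩ i,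
        mulVec_linearIndependent _ (hbase _)⟩ : Tup F m k) = ⟨w, hw⟩ := Subtype.ext (funext fun i => by
      show mat (g * sec ⟨w, hw⟩) *ᵥ base ⟨gram w, w, hw, rfl⟩ i = w i
      rw [coe_mul', ← Matrix.mulVec_mulVec, hsec]
      exact hfix i)
    refine Sigma.subtype_ext ?_ e
    show g * sec ⟨w, hw⟩ * (sec _)⁻¹ = g
    rw [e, mul_inv_cancel_right]
  · rintro ⟨G, A⟩
    refine Prod.ext (Subtype.ext ?_) (inv_mul_cancel_right _ _)
    show gram (fun i => mat A *ᵥ base G i) = G.1
    conv_rhs => rw [← hgram G]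
    ext i j; exact form_mulVec _ _ _

theorem card_fix_tuples (g : Sp) (k : ℕ) :
    (Nat.card {w : Tup F m k // ∀ i, mat g *ᵥ w.1 i = w.1 i} : ℝ) = ∏ i ∈ Finset.range k,
      ((Fintype.card F : ℝ) ^ Module.finrank F (LinearMap.ker ((mat g).mulVecLin - LinearMap.id)) - (Fintype.card F : ℝ) ^ i) := by
  classical
  obtain ⟨W, hW⟩ : ∃ W : Submodule F V, W = LinearMap.ker ((mat g).mulVecLin - LinearMap.id) := ⟨_, rfl⟩
  rw [← hW]
  have hmem : ∀ v, v ∈ W ↔ mat g *ᵥ v = v := fun v => by simp [hW, sub_eq_zero]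
  let e : {w : Tup F m k // ∀ i, mat g *ᵥ w.1 i = w.1 i} ≃ {s : Fin k → W // LinearIndependent F s} :=
    { toFun := fun w => ⟨fun i => ⟨w.1.1 i, (hmem _).mpr (w.2 i)⟩, LinearIndependent.of_comp W.subtype w.1.2⟩
      invFun := fun s => ⟨⟨fun i => s.1 i, s.2.map' W.subtype W.ker_subtype⟩, fun i => (hmem _).mp (s.1 i).2⟩
      left_inv := fun w => rfl
      right_inv := fun s => rfl }
  rw [Nat.card_congr e]
  by_cases hk : k ≤ Module.finrank F W
  · rw [card_linearIndependent hk, Nat.cast_prod, ← Fin.prod_univ_eq_prod_range (fun i =>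
      ((Fintype.card F : ℝ) ^ Module.finrank F W - (Fintype.card F : ℝ) ^ i))]
    refine Finset.prod_congr rfl fun i _ => ?_
    rw [Nat.cast_sub (Nat.pow_le_pow_right Fintype.card_pos (by omega)), Nat.cast_pow, Nat.cast_pow]
  · have : IsEmpty {s : Fin k → W // LinearIndependent F s} := ⟨fun s => hk (by
      simpa using s.2.fintype_card_le_finrank)⟩
    rw [Nat.card_of_isEmpty, Nat.cast_zero, eq_comm]
    exact Finset.prod_eq_zero (Finset.mem_range.mpr (not_le.mp hk)) (sub_self _)

theorem card_fpf : (Nat.card {g : Sp // ∀ v, mat g *ᵥ v = v → v = 0} : ℝ) =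
    Nat.card Sp * ee (Fintype.card F : ℝ) m := by
  classical
  have hq : (1 : ℝ) < Fintype.card F := by exact_mod_cast Fintype.one_lt_card
  have : Fintype Sp := Fintype.ofFinite _
  have hd : ∀ g : Sp, (if ∀ v, mat g *ᵥ v = v → v = 0 then (1 : ℝ) else 0) =
      ∑ k ∈ Finset.range (2 * m + 1), (-1) ^ k * dd (Fintype.card F : ℝ) k *
        (Nat.card {w : Tup F m k // ∀ i, mat g *ᵥ w.1 i = w.1 i} : ℝ) := fun g => by
    have hle := Submodule.finrank_le (LinearMap.ker ((mat g).mulVecLin - LinearMap.id))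
    rw [Module.finrank_pi, Fintype.card_sum, Fintype.card_fin, ← two_mul] at hle
    simp only [card_fix_tuples]
    rw [moebius hq _ _ hle]
    refine if_congr ?_ rfl rfl
    rw [Submodule.finrank_eq_zero, Submodule.eq_bot_iff]
    simp [sub_eq_zero]
  have hR : ∀ k, (Nat.card (realGram F m k) : ℝ) =
      ∑ s ∈ Finset.range (k + 1), if k + s ≤ 2 * m then aa (Fintype.card F : ℝ) k s else 0 := fun k => by
    have hs : ∀ G : realGram F m k, radDim G.1 < k + 1 := fun G => by
      have := Submodule.finrank_le (LinearMap.ker G.1.mulVecLin)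
      rw [Module.finrank_pi, Fintype.card_fin] at this
      rw [radDim]; omega
    let e : realGram F m k ≃ Σ s : Fin (k + 1), Rs F m k s :=
      { toFun := fun G => ⟨⟨radDim G.1, hs G⟩, G.1, G.2, rfl⟩
        invFun := fun x => ⟨x.2.1, x.2.2.1⟩
        left_inv := fun G => rfl
        right_inv := fun x => Sigma.subtype_ext (Fin.ext x.2.2.2) rfl }
    rw [Nat.card_congr e, Nat.card_sigma, Nat.cast_sum, ← Fin.sum_univ_eq_sum_range]
    exact Finset.sum_congr rfl fun s _ => card_Rs k s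
  have h1 : (Nat.card {g : Sp // ∀ v, mat g *ᵥ v = v → v = 0} : ℝ) =
      ∑ g : Sp, if ∀ v, mat g *ᵥ v = v → v = 0 then (1 : ℝ) else 0 := by
    rw [Finset.sum_boole, Nat.card_eq_fintype_card, Fintype.card_subtype]
  rw [h1, Finset.sum_congr rfl fun g _ => hd g, Finset.sum_comm, ee, Finset.mul_sum]
  refine Finset.sum_congr rfl fun k _ => ?_
  rw [← Finset.mul_sum, ← Nat.cast_sum, sum_fix, Nat.cast_mul, hR, Finset.sum_mul, Finset.mul_sum, Finset.mul_sum]
  refine Finset.sum_congr rfl fun s _ => ?_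
  split_ifs <;> ring

end CfsgLib.SpUnipCount
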